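import Mathlib

/-!
Lemma G5 (for helper1, S3789 p = 3 core): a 3-group `B` normalizing `T` with `|T/Z(T)| = 4`:
every element of `⁅B, B⁆` acts trivially on `T` modulo its centre.
-/

set_option autoImplicit false

namespace Cfsg.Agent.Lib.Helper62.HHG5

/-- the conjugation action of `B` on `T`. -/
@[reducible] def conjActOn {G : Type*} [Group G] (B T : Subgroup G)
    (hBT : ∀ b ∈ B, ∀ t ∈ T, b * t * b⁻¹ ∈ T) : MulAction B T where
  smul b t := ⟨(b : G) * t * (b : G)⁻¹, hBT b b.2 t t.2⟩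
  one_smul t := by
    apply Subtype.ext
    show ((1 : B) : G) * (t : G) * ((1 : B) : G)⁻¹ = t
    simp
  mul_smul b₁ b₂ t := by
    apply Subtype.ext
    show ((b₁ * b₂ : B) : G) * (t : G) * ((b₁ * b₂ : B) : G)⁻¹
      = (b₁ : G) * ((b₂ : G) * (t : G) * (b₂ : G)⁻¹) * (b₁ : G)⁻¹
    simp [mul_assoc]

theorem conj_mem_center {G : Type*} [Group G] (B T : Subgroup G)
    (hBT : ∀ b ∈ B, ∀ t ∈ T, b * t * b⁻¹ ∈ T) (b : G) (hb : b ∈ B) (z : T)
    (hz : z ∈ Subgroup.center T) :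
    (⟨b * z * b⁻¹, hBT b hb z z.2⟩ : T) ∈ Subgroup.center T := by
  rw [Subgroup.mem_center_iff] at hz ⊢
  intro k
  have hk' : b⁻¹ * (k : G) * b ∈ T := by
    have := hBT b⁻¹ (B.inv_mem hb) k k.2
    simpa using this
  have h1 := hz ⟨b⁻¹ * (k : G) * b, hk'⟩
  have h2 : b⁻¹ * (k : G) * b * (z : G) = (z : G) * (b⁻¹ * (k : G) * b) := by
    simpa using congrArg Subtype.val h1
  apply Subtype.ext
  show (k : G) * (b * (z : G) * b⁻¹) = b * (z : G) * b⁻¹ * (k : G)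
  have h3 : (k : G) * (b * (z : G) * b⁻¹) = b * (b⁻¹ * (k : G) * b * (z : G)) * b⁻¹ := by
    group
  rw [h3, h2]
  group

theorem comm_trivial_of_card_four {G : Type*} [Group G] (B T : Subgroup G) [Finite B] [Finite T]
    (hB : IsPGroup 3 B) (hBT : ∀ b ∈ B, ∀ t ∈ T, b * t * b⁻¹ ∈ T)
    (hcard : Nat.card (T ⧸ Subgroup.center T) = 4) :
    ∀ c ∈ ⁅B, B⁆, ∀ t ∈ T, ∀ k ∈ T, (c * t * c⁻¹ * t⁻¹) * k = k * (c * t * c⁻¹ * t⁻¹) := by
  classical
  let act : MulAction B T := conjActOn B T hBT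
  have hsmul : ∀ (b : B) (t : T), ((b • t : T) : G) = (b : G) * t * (b : G)⁻¹ := fun b t => rfl
  have qa : MulAction.QuotientAction B (Subgroup.center T) := by
    refine ⟨?_⟩
    intro b a a' h
    have h2 := conj_mem_center B T hBT b b.2 (a⁻¹ * a') h
    have h3 : (b • a)⁻¹ * b • a' = (⟨(b : G) * ((a⁻¹ * a' : T) : G) * (b : G)⁻¹,
        hBT b b.2 _ (a⁻¹ * a' : T).2⟩ : T) := by
      apply Subtype.ext
      show ((b • a : T) : G)⁻¹ * ((b • a' : T) : G) = _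
      rw [hsmul, hsmul]
      simp only [Subgroup.coe_mul, Subgroup.coe_inv]
      group
    rw [h3]
    exact h2
  let φ : B →* Equiv.Perm (T ⧸ Subgroup.center T) := MulAction.toPermHom B (T ⧸ Subgroup.center T)
  -- the range of φ is commutative
  have hrange : IsPGroup 3 φ.range := hB.of_surjective φ.rangeRestrict φ.rangeRestrict_surjective
  have : Fact (Nat.Prime 3) := ⟨by norm_num⟩
  have hfin : Finite (T ⧸ Subgroup.center T) := inferInstance
  have hdvd : Nat.card φ.range ∣ 24 := by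
    have h1 : Nat.card φ.range ∣ Nat.card (Equiv.Perm (T ⧸ Subgroup.center T)) :=
      Subgroup.card_subgroup_dvd_card _
    rw [Nat.card_perm, hcard] at h1
    exact h1
  obtain ⟨n, hn⟩ := (IsPGroup.iff_card).mp hrange
  have hn1 : n ≤ 1 := by
    by_contra hcon
    rw [not_le] at hcon
    have h9 : 9 ∣ Nat.card φ.range := by
      rw [hn]
      calc 9 = 3 ^ 2 := by norm_num
        _ ∣ 3 ^ n := pow_dvd_pow 3 hcon
    have : 9 ∣ 24 := h9.trans hdvd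
    omega
  have hcomm : ∀ x y : φ.range, x * y = y * x := by
    interval_cases n
    · have hsub : Subsingleton φ.range :=
        (Nat.card_eq_one_iff_unique.mp (by simpa using hn)).1
      intro x y
      rw [Subsingleton.elim x y]
    · have hcyc : IsCyclic φ.range := isCyclic_of_prime_card (p := 3) (by simpa using hn)
      intro x y
      exact (IsCyclic.isMulCommutative (α := φ.range)).is_comm.comm x y
  have hφcomm : ∀ x y : B, φ x * φ y = φ y * φ x := by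
    intro x y
    have := hcomm ⟨φ x, x, rfl⟩ ⟨φ y, y, rfl⟩
    simpa using congrArg Subtype.val this
  -- commutators are in the kernel
  have hker : ⁅B, B⁆ ≤ (φ.ker).map B.subtype := by
    rw [Subgroup.commutator_le]
    intro g₁ h₁ g₂ h₂
    refine ⟨(⟨g₁, h₁⟩ : B) * ⟨g₂, h₂⟩ * (⟨g₁, h₁⟩ : B)⁻¹ * (⟨g₂, h₂⟩ : B)⁻¹, ?_, ?_⟩
    · show (⟨g₁, h₁⟩ : B) * ⟨g₂, h₂⟩ * (⟨g₁, h₁⟩ : B)⁻¹ * (⟨g₂, h₂⟩ : B)⁻¹ ∈ φ.ker
      rw [MonoidHom.mem_ker, map_mul, map_mul, map_mul, map_inv, map_inv, hφcomm ⟨g₁, h₁⟩ ⟨g₂, h₂⟩]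
      group
    · simp [commutatorElement_def]
  intro c hc t ht k hk
  obtain ⟨c', hc', rfl⟩ := hker hc
  rw [SetLike.mem_coe, MonoidHom.mem_ker] at hc'
  have h1 : c' • ((⟨t, ht⟩ : T) : T ⧸ Subgroup.center T) = ((⟨t, ht⟩ : T) : T ⧸ Subgroup.center T) := by
    have : φ c' ((⟨t, ht⟩ : T) : T ⧸ Subgroup.center T) = ((⟨t, ht⟩ : T) : T ⧸ Subgroup.center T) := by
      rw [hc']; rfl
    exact this
  rw [MulAction.Quotient.smul_coe] at h1
  have h2 : (c' • (⟨t, ht⟩ : T))⁻¹ * (⟨t, ht⟩ : T) ∈ Subgroup.center T := QuotientGroup.eq.mp h1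
  rw [Subgroup.mem_center_iff] at h2
  -- u := c t c⁻¹, z := u⁻¹ t central; u t⁻¹ = u z⁻¹ u⁻¹
  have hu : (c' : G) * t * (c' : G)⁻¹ ∈ T := hBT c' c'.2 t ht
  have hz : ∀ g ∈ T, g * (((c' : G) * t * (c' : G)⁻¹)⁻¹ * t) = (((c' : G) * t * (c' : G)⁻¹)⁻¹ * t) * g := by
    intro g hg
    have := h2 ⟨g, hg⟩
    have h3 := congrArg Subtype.val this
    simpa [hsmul] using h3
  show (B.subtype c' * t * (B.subtype c')⁻¹ * t⁻¹) * k = k * (B.subtype c' * t * (B.subtype c')⁻¹ * t⁻¹)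
  simp only [Subgroup.coe_subtype]
  set u := (c' : G) * t * (c' : G)⁻¹ with hu_def
  have hc1 : Commute u (u⁻¹ * t) := hz u hu
  have hc2 : Commute k (u⁻¹ * t) := hz k hk
  have e : u * t⁻¹ = (u⁻¹ * t)⁻¹ := by
    have h := hc1.inv_right.eq
    calc u * t⁻¹ = u * (u⁻¹ * t)⁻¹ * u⁻¹ := by group
      _ = (u⁻¹ * t)⁻¹ * u * u⁻¹ := by rw [h]
      _ = (u⁻¹ * t)⁻¹ := by group
  rw [e]
  exact (hc2.inv_right.eq).symm

end Cfsg.Agent.Lib.Helper62.HHG5
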