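import Mathlib
import Cfsg.Prelude.Def_OddOrderLocal
import Cfsg.Prelude.Def_OddOrder

/-!
# S1389 (call by helper62): statement pieces

S1389: `M` maximal, `M_s := typeCore M` (`M'` for Types III, IV, `M_F` otherwise).  Then
`N_G(P) ≤ M` for every nontrivial Sylow subgroup `P` of `M_s`, and `M_F`, `M_s` are Hall
subgroups of `G`.

* `M_F` is Hall in `G` (`FHG`); its Sylow subgroups are normal in `M` (`NFH`).
* Types III, IV: for a sigma-decomposition `(K, U)` of `M`: `K ≠ 1` (`KNe34`), `U = 1`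
  (`UBot34`, from `N_G(U_t) ≤ M` against S1363), so `M' = M_σ` (S1365), a Hall subgroup of `G`
  (`SigHall`, S1350) whose Sylow subgroups have their normalizers in `M` (`NSig`).
-/

set_option autoImplicit false

namespace Cfsg.Agent.Lib.Helper62.S89Stmt

universe u

open Cfsg

/-- [FHG] (S-M) `M_F` is a Hall subgroup of `G`.  `by_contra`,
`Nat.Prime.not_coprime_iff_dvd` gives a prime `p ∣ |M_F|`, `p ∣ (fittingHallOf M).index`.
`p ∣ |M_σ|` (`Subgroup.card_dvd_of_le` with `Cfsg.Agent.Lib.Helper22.S55FLE.main hG M hM :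
fittingHallOf M ≤ sigmaCore M`), so `p ∈ sigma M` and `¬ p ∣ (sigmaCore M).index`
(`(Cfsg.Agent.S1350.result hG M hM).2.1`), hence `¬ p ∣ M.index` (`Subgroup.index_dvd_of_le`).
`(fittingHallOf M).index = (fittingHallOf M).relIndex M * M.index`
(`Subgroup.relIndex_mul_index`), `(fittingHallOf M).relIndex M = (fittingHall ↥M).index`
(`unfold Subgroup.relIndex Subgroup.subgroupOf Cfsg.fittingHallOf`,
`Subgroup.comap_map_eq_self_of_injective`), `Nat.card (fittingHallOf M) = Nat.card (fittingHall ↥M)`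
(`Subgroup.card_map_of_injective`), and `Cfsg.Agent.Lib.Helper17.S64FHHALL.main` (coprime in
`↥M`) gives `¬ p ∣ (fittingHall ↥M).index`. -/
def FHG : Prop :=
  ∀ {G : Type u} [Group G] [Finite G], Cfsg.IsMinSimpleOddOrder G →
  ∀ (M : Subgroup G), IsCoatom M →
    (Nat.card ↥(Cfsg.fittingHallOf M)).Coprime (Cfsg.fittingHallOf M).index

/-- [SIGHALL] (S) `M_σ` is a Hall subgroup of `G`:
`(Cfsg.Agent.S1350.result hG M hM).2.1 : IsPiHall (sigma M) (sigmaCore M)`, i.e. the primes of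
`|M_σ|` lie in `sigma M` and no prime of `sigma M` divides the index
(`by_contra`, `Nat.Prime.not_coprime_iff_dvd`). -/
def SigHall : Prop :=
  ∀ {G : Type u} [Group G] [Finite G], Cfsg.IsMinSimpleOddOrder G →
  ∀ (M : Subgroup G), IsCoatom M →
    (Nat.card ↥(Cfsg.sigmaCore M)).Coprime (Cfsg.sigmaCore M).index

/-- [NFH] (M) `N_G(P) ≤ M` for a nontrivial Sylow subgroup `P` of `M_F`.  `F := fittingHallOf M`
is nilpotent (`fittingHall ↥M ≤ fittingSubgroup ↥M` as `sSup` of a smaller family,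
`Cfsg.Agent.Lib.Helper71.Fitting.fitting_isNilpotent`, `Subgroup.isNilpotent`-of-le / injective
hom, `Subgroup.equivMapOfInjective`), so `P` is normal in `↥F`
(`(Group.isNilpotent_of_finite_tfae.out 0 3).mp`), hence characteristic
(`Sylow.characteristic_of_normal`).  `M ≤ N_G(F)`
(`Cfsg.Agent.Lib.Helper9.BG11b.le_normalizer_map_subtype M (fittingHall ↥M)`), so for `m ∈ M`
conjugation by `m` maps `Pt := P.map F.subtype` onto the image of a Sylow `p`-subgroup of `F`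
(same order), which is `P` (normal Sylow is unique: `Sylow.subsingleton`-style or
`Subgroup.Characteristic` + `MulAut.conjNormal`); so `M ≤ N_G(Pt)`.  `Pt ≠ ⊥`, `Pt ≤ F ≤ M`:
`Cfsg.Agent.Lib.Helper9.BG11b.normalizer_eq hG hM _ _ _ : N_G(Pt) = M`. -/
def NFH : Prop :=
  ∀ {G : Type u} [Group G] [Finite G], Cfsg.IsMinSimpleOddOrder G →
  ∀ (M : Subgroup G), IsCoatom M →
  ∀ (p : ℕ), p.Prime → ∀ (P : Sylow p ↥(Cfsg.fittingHallOf M)),
    (P : Subgroup ↥(Cfsg.fittingHallOf M)) ≠ ⊥ →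
    Subgroup.normalizer ((((P : Subgroup ↥(Cfsg.fittingHallOf M)).map
      (Cfsg.fittingHallOf M).subtype : Subgroup G)) : Set G) ≤ M

/-- [NSIG] (M) `N_G(P) ≤ M` for a nontrivial Sylow subgroup `P` of `M_σ`.  `P ≠ ⊥` gives
`p ∣ |M_σ|`, so `p ∈ sigma M` (`(Cfsg.Agent.S1350.result hG M hM).1.2.1`) and
`¬ p ∣ (sigmaCore M).relIndex M` (`.1.2.2`).  `Pt := P.map (sigmaCore M).subtype` is a Sylow
`p`-subgroup of `M`: `Pt ≤ M` and `Nat.card Pt = p ^ (Nat.card M).factorization p`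
(`Sylow.card_eq_multiplicity`, `Subgroup.card_mul_index`/`relIndex`, factorization of a product
with a `p'`-number), i.e. `Cfsg.Agent.Lib.Helper9.BG10a.IsSyl p M Pt` (check its definition);
`Cfsg.Agent.Lib.Helper9.BG11b.normalizer_le_of_sigma hp hSyl`. -/
def NSig : Prop :=
  ∀ {G : Type u} [Group G] [Finite G], Cfsg.IsMinSimpleOddOrder G →
  ∀ (M : Subgroup G), IsCoatom M →
  ∀ (p : ℕ), p.Prime → ∀ (P : Sylow p ↥(Cfsg.sigmaCore M)),
    (P : Subgroup ↥(Cfsg.sigmaCore M)) ≠ ⊥ →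
    Subgroup.normalizer ((((P : Subgroup ↥(Cfsg.sigmaCore M)).map
      (Cfsg.sigmaCore M).subtype : Subgroup G)) : Set G) ≤ M

/-- [KNE34] (M) type-P data with `|W₁|` prime forces `K ≠ 1`.  `r := Nat.card W₁`.
`w ∈ W₁`, `w ≠ 1` (`hP.W₁_ne`); `y ∈ W₂`, `y ≠ 1` (`hP.selfNormalizing.2.1 : W₂ ≠ ⊥`);
`y ∈ centralizer {w}` (`hP.W₂_centralizer w _ _`), `y ∈ fittingHallOf M` (`hP.W₂_le`), so
`y ∈ sigmaCore M` (`Cfsg.Agent.Lib.Helper22.S55FLE.main`).  `orderOf w ∣ r`, so the only prime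
dividing `orderOf w` is `r`.  `r ∉ sigma M`: else `¬ r ∣ (sigmaCore M).relIndex M`
(`(Cfsg.Agent.S1350.result hG M hM).1.2.2`), so `w ∈ sigmaCore M` (in `↥M`:
`Cfsg.Agent.Lib.Helper62.S72BETA.mem_of_coprime_index (piCore (sigma M) ↥M) ⟨w, _⟩`), and
`sigmaCore M ≤ ⁅M, M⁆` (`Cfsg.Agent.Lib.Helper47.S55SLE.main hG M K U hM hKU`), against
`hP.W₁_compl.2.2.1 : ⁅M, M⁆ ⊓ W₁ = ⊥`.
`Cfsg.Agent.S1432.result hG M hM y _ _ w _ _ _` : either `r ∈ kappa M` - then `r ∣ Nat.card M`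
and `¬ r ∣ K.relIndex M` (`hKU.hall.2.2`), impossible for `K = ⊥`
(`Subgroup.relIndex_bot_left`) - or `r ∈ tau2 M`, so `¬ PRankLE r 1 ↥M`: impossible, since an
`A ≤ ↥M` with `a ^ r = 1` for all `a` has `Nat.card A = r ^ j` dividing
`Nat.card M = r * W₁.relIndex M` with `r ∤ W₁.relIndex M` (`hP.W₁_hall`), so `j ≤ 1`. -/
def KNe34 : Prop :=
  ∀ {G : Type u} [Group G] [Finite G], Cfsg.IsMinSimpleOddOrder G →
  ∀ (M : Subgroup G), IsCoatom M → ∀ (W₁ Ut W₂ K U : Subgroup G),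
    Cfsg.IsTypePWith M W₁ Ut W₂ → (Nat.card ↥W₁).Prime →
    Cfsg.IsSigmaDecomposition M K U → K ≠ ⊥

/-- [UBOT34] (M-L) type-P data with `N_G(U_t) ≤ M` and `K ≠ 1` force `U = 1`.  Suppose `U ≠ ⊥`.
`sigmaCore M` is nilpotent (`Cfsg.Agent.Lib.Helper22.BG147N0.nilpotent_of_U_ne_bot hG hM hKU hU`),
so `sigmaCore M = fittingHallOf M` (`Cfsg.Agent.Lib.Helper57.BG14FHCore.main_of hG M hM
(Cfsg.Agent.S1350.result hG M hM).1 hnil`); `⁅M, M⁆ = U ⊔ sigmaCore M`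
(`(Cfsg.Agent.S1365.result hG M hM K U hKU hK1).1`); `¬ N_G(U) ≤ M`
(`(Cfsg.Agent.S1363.result hG M hM K U hKU hK1).2`).  `U` and `Ut` are complements of
`Q := sigmaCore M` in `⁅M, M⁆` (`hKU.compl.2.2.1` gives `Q ⊓ U = ⊥`; `hP.U_compl`), `Q` is
normalized by `M` (`Cfsg.Agent.Lib.Helper9.BG11b.sigmaCore_normal M`), solvable (`hG.2.2.2`),
and `(Nat.card Q).Coprime (Nat.card U)` (primes of `|Q|` are in `sigma M`; `|U|` divides
`(sigmaCore M).relIndex M`, which no prime of `sigma M` divides: S1350).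
`Cfsg.Agent.Lib.Helper2.Split.conj_compl Q ⁅M, M⁆ U Ut ..` : `∃ m ∈ Q, MulAut.conj m • U = Ut`
(card hypotheses `|Q| * |U| = |M'| = |Q| * |Ut|`: from the complement data).  For
`n ∈ N_G(U)`, `n ∉ M`: `m * n * m⁻¹ ∈ N_G(Ut) ≤ M`, and `m ∈ M`: contradiction. -/
def UBot34 : Prop :=
  ∀ {G : Type u} [Group G] [Finite G], Cfsg.IsMinSimpleOddOrder G →
  ∀ (M : Subgroup G), IsCoatom M → ∀ (W₁ Ut W₂ K U : Subgroup G),
    Cfsg.IsTypePWith M W₁ Ut W₂ → Subgroup.normalizer (Ut : Set G) ≤ M →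
    Cfsg.IsSigmaDecomposition M K U → K ≠ ⊥ → U = ⊥

end Cfsg.Agent.Lib.Helper62.S89Stmt
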