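import Mathlib

set_option autoImplicit false

universe u

/-!
Piece P3b of S3797 (for helper2): an elementary abelian `r`-group (`r` odd) of rank `k`
preserving an anisotropic quadratic map `U → Z` over `F_2` forces `2 ^ k ≤ |Z|`.
-/

namespace Cfsg.Agent.Lib.Helper62.Aniso

section basics

variable {U : Type u} [AddCommGroup U]

/-- the norm sum `∑_{i<r} c^i v` -/
noncomputable def nrm (r : ℕ) (c : Equiv.Perm U) (v : U) : U :=
  ∑ i ∈ Finset.range r, (c ^ i) v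

theorem perm_map_sum {𝒜 : Subgroup (Equiv.Perm U)}
    (hadd : ∀ a ∈ 𝒜, ∀ u v, a (u + v) = a u + a v) {c : Equiv.Perm U} (hc : c ∈ 𝒜)
    {ι : Type*} (s : Finset ι) (f : ι → U) : c (∑ i ∈ s, f i) = ∑ i ∈ s, c (f i) := by
  exact map_sum (AddMonoidHom.mk' (⇑c) (hadd c hc)) f s

theorem perm_map_zero {𝒜 : Subgroup (Equiv.Perm U)}
    (hadd : ∀ a ∈ 𝒜, ∀ u v, a (u + v) = a u + a v) {c : Equiv.Perm U} (hc : c ∈ 𝒜) :
    c 0 = 0 := by
  exact (AddMonoidHom.mk' (⇑c) (hadd c hc)).map_zero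

theorem sum_shift {𝒜 : Subgroup (Equiv.Perm U)} {r : ℕ}
    (hexp : ∀ a ∈ 𝒜, a ^ r = 1) {c : Equiv.Perm U} (hc : c ∈ 𝒜) (v : U) :
    ∑ i ∈ Finset.range r, (c ^ (i + 1)) v = ∑ i ∈ Finset.range r, (c ^ i) v := by
  have e1 := Finset.sum_range_succ' (fun i => (c ^ i) v) r
  have e2 := Finset.sum_range_succ (fun i => (c ^ i) v) r
  have e3 : (c ^ r) v = (c ^ 0) v := by rw [hexp c hc, pow_zero]
  rw [e1, e3] at e2
  exact add_right_cancel e2

theorem nrm_fixed {𝒜 : Subgroup (Equiv.Perm U)} {r : ℕ}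
    (hadd : ∀ a ∈ 𝒜, ∀ u v, a (u + v) = a u + a v)
    (hexp : ∀ a ∈ 𝒜, a ^ r = 1) {c : Equiv.Perm U} (hc : c ∈ 𝒜) (v : U) :
    c (nrm r c v) = nrm r c v := by
  unfold nrm
  rw [perm_map_sum hadd hc]
  have h1 : ∀ i, c ((c ^ i) v) = (c ^ (i + 1)) v := by
    intro i; rw [pow_succ']; rfl
  simp_rw [h1]
  exact sum_shift hexp hc v

theorem nrm_im {𝒜 : Subgroup (Equiv.Perm U)} {r : ℕ} (h2U : ∀ u : U, u + u = 0)
    (hadd : ∀ a ∈ 𝒜, ∀ u v, a (u + v) = a u + a v)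
    (hexp : ∀ a ∈ 𝒜, a ^ r = 1) {c : Equiv.Perm U} (hc : c ∈ 𝒜) (v : U) :
    nrm r c (c v + v) = 0 := by
  unfold nrm
  have h1 : ∀ i, (c ^ i) (c v + v) = (c ^ (i + 1)) v + (c ^ i) v := by
    intro i
    rw [hadd (c ^ i) (pow_mem hc i), pow_succ]; rfl
  simp_rw [h1]
  rw [Finset.sum_add_distrib, sum_shift hexp hc v]
  exact h2U _

theorem odd_nsmul (h2U : ∀ u : U, u + u = 0) {r : ℕ} (hodd : Odd r) (w : U) : r • w = w := by
  obtain ⟨m, rfl⟩ := hodd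
  rw [add_nsmul, one_nsmul, two_mul, add_nsmul, ← nsmul_add, h2U, nsmul_zero, zero_add]

theorem fix_im {𝒜 : Subgroup (Equiv.Perm U)} {r : ℕ} (h2U : ∀ u : U, u + u = 0) (hodd : Odd r)
    (hadd : ∀ a ∈ 𝒜, ∀ u v, a (u + v) = a u + a v)
    (hexp : ∀ a ∈ 𝒜, a ^ r = 1) {a : Equiv.Perm U} (ha : a ∈ 𝒜) (v : U)
    (h : a (a v + v) = a v + v) : a v + v = 0 := by
  have h1 : nrm r a (a v + v) = r • (a v + v) := by
    unfold nrm
    have : ∀ i ∈ Finset.range r, (a ^ i) (a v + v) = a v + v := fun i _ =>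
      Equiv.Perm.pow_apply_eq_self_of_apply_eq_self h i
    rw [Finset.sum_congr rfl this, Finset.sum_const, Finset.card_range]
  rw [nrm_im h2U hadd hexp ha v, odd_nsmul h2U hodd] at h1
  exact h1.symm

end basics

theorem aux (r : ℕ) [Fact r.Prime] (hr : r ≠ 2) (U Z : Type u)
    [AddCommGroup U] [AddCommGroup Z] [Finite U] [Finite Z]
    (h2U : ∀ u : U, u + u = 0) (h2Z : ∀ z : Z, z + z = 0)
    (sq : U → Z) (β : U → U → Z)
    (hβ : ∀ u v, sq (u + v) = sq u + sq v + β u v)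
    (hβadd : ∀ u v w, β (u + v) w = β u w + β v w)
    (𝒜 : Subgroup (Equiv.Perm U)) (hadd : ∀ a ∈ 𝒜, ∀ u v, a (u + v) = a u + a v)
    (hcomm : ∀ a ∈ 𝒜, ∀ b ∈ 𝒜, a * b = b * a)
    (hexp : ∀ a ∈ 𝒜, a ^ r = 1) (hinv : ∀ a ∈ 𝒜, ∀ u, sq (a u) = sq u) :
    ∀ (k : ℕ) (U₀ : AddSubgroup U) (Z₀ : AddSubgroup Z),
      (∀ a ∈ 𝒜, ∀ u ∈ U₀, a u ∈ U₀) →
      (∀ u ∈ U₀, sq u ∈ Z₀ → u = 0) →
      r ^ k * Nat.card {b : Equiv.Perm U // b ∈ 𝒜 ∧ ∀ u ∈ U₀, b u = u} ≤ Nat.card 𝒜 →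
      2 ^ k ≤ Z₀.index := by
  have hrp : r.Prime := Fact.out
  have hodd : Odd r := hrp.odd_of_ne_two hr
  have hneg : ∀ u : U, -u = u := fun u => neg_eq_of_add_eq_zero_left (h2U u)
  have hβsymm : ∀ u v, β u v = β v u := by
    intro u v
    have h1 := hβ u v
    have h2 := hβ v u
    rw [add_comm v u, h1, add_comm (sq v) (sq u)] at h2
    exact add_left_cancel h2
  have hβinv : ∀ a ∈ 𝒜, ∀ u v, β (a u) (a v) = β u v := by
    intro a ha u v
    have h1 := hβ (a u) (a v)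
    rw [← hadd a ha, hinv a ha, hinv a ha, hinv a ha, hβ u v] at h1
    exact (add_left_cancel h1).symm
  have hβadd2 : ∀ u v w, β u (v + w) = β u v + β u w := by
    intro u v w
    rw [hβsymm u (v + w), hβadd, hβsymm v u, hβsymm w u]
  intro k
  induction k with
  | zero =>
    intro U₀ Z₀ _ _ _
    have : Z₀.index ≠ 0 := AddSubgroup.index_ne_zero_of_finite
    simpa using Nat.one_le_iff_ne_zero.mpr this
  | succ k ih =>
    intro U₀ Z₀ hU₀ haniso hcard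
    -- some element of 𝒜 moves a point of U₀
    have hex : ∃ a ∈ 𝒜, ¬ ∀ u ∈ U₀, a u = u := by
      by_contra hcon
      push Not at hcon
      have hc : Nat.card {b : Equiv.Perm U // b ∈ 𝒜 ∧ ∀ u ∈ U₀, b u = u} = Nat.card 𝒜 := by
        apply Nat.card_congr
        exact Equiv.subtypeEquivRight (fun b => ⟨fun h => h.1, fun h => ⟨h, hcon b h⟩⟩)
      rw [hc] at hcard
      have hpos : 0 < Nat.card 𝒜 := Nat.card_pos
      have h2 : 2 ≤ r ^ (k + 1) := by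
        calc 2 ≤ r := hrp.two_le
          _ = r ^ 1 := (pow_one r).symm
          _ ≤ r ^ (k + 1) := Nat.pow_le_pow_right hrp.pos (by omega)
      nlinarith
    have : Nonempty {c : Equiv.Perm U // c ∈ 𝒜 ∧ ¬ ∀ u ∈ U₀, c u = u} := by
      obtain ⟨a, ha, ha'⟩ := hex
      exact ⟨⟨a, ha, ha'⟩⟩
    obtain ⟨⟨a, ha, haU⟩, hmax⟩ := Finite.exists_max
      (fun c : {c : Equiv.Perm U // c ∈ 𝒜 ∧ ¬ ∀ u ∈ U₀, c u = u} =>
        ({u | u ∈ U₀ ∧ c.1 u = u} : Set U).ncard)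
    have hmaxeq : ∀ c ∈ 𝒜, (¬ ∀ u ∈ U₀, c u = u) → (∀ u ∈ U₀, a u = u → c u = u) →
        ∀ u ∈ U₀, c u = u → a u = u := by
      intro c hc hcU hsub u hu hcu
      have h1 : ({u | u ∈ U₀ ∧ a u = u} : Set U) ⊆ {u | u ∈ U₀ ∧ c u = u} :=
        fun x hx => ⟨hx.1, hsub x hx.1 hx.2⟩
      have h2 := hmax ⟨c, hc, hcU⟩
      have h3 := Set.eq_of_subset_of_ncard_le h1 h2 (Set.toFinite _)
      have h4 : u ∈ ({u | u ∈ U₀ ∧ c u = u} : Set U) := ⟨hu, hcu⟩
      rw [← h3] at h4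
      exact h4.2
    have hfi : ∀ v : U, a (a v + v) = a v + v → a v + v = 0 :=
      fun v h => fix_im h2U hodd hadd hexp ha v h
    have hkey : ∀ c ∈ 𝒜, (¬ ∀ u ∈ U₀, c u = u) → (∀ u ∈ U₀, a u = u → c u = u) →
        ∀ v ∈ U₀, nrm r c (a v + v) = 0 := by
      intro c hc hcU hsub v hv
      have h1 : nrm r c (a v + v) = a (nrm r c v) + nrm r c v := by
        unfold nrm
        rw [perm_map_sum hadd ha, ← Finset.sum_add_distrib]
        apply Finset.sum_congr rfl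
        intro i _
        rw [hadd (c ^ i) (pow_mem hc i)]
        congr 1
        have := hcomm (c ^ i) (pow_mem hc i) a ha
        calc (c ^ i) (a v) = (c ^ i * a) v := rfl
          _ = (a * c ^ i) v := by rw [this]
          _ = a ((c ^ i) v) := rfl
      have h2 : nrm r c v ∈ U₀ := by
        unfold nrm
        exact AddSubgroup.sum_mem _ (fun i _ => hU₀ _ (pow_mem hc i) v hv)
      have h3 : nrm r c (a v + v) ∈ U₀ := by
        rw [h1]; exact U₀.add_mem (hU₀ a ha _ h2) h2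
      have h4 : c (nrm r c (a v + v)) = nrm r c (a v + v) := nrm_fixed hadd hexp hc _
      have h5 : a (nrm r c (a v + v)) = nrm r c (a v + v) := hmaxeq c hc hcU hsub _ h3 h4
      rw [h1] at h5 ⊢
      exact hfi _ h5
    push Not at haU
    obtain ⟨u₀, hu₀, hau₀⟩ := haU
    have hu₁U : a u₀ + u₀ ∈ U₀ := U₀.add_mem (hU₀ a ha u₀ hu₀) hu₀
    have hu₁0 : a u₀ + u₀ ≠ 0 := by
      intro h
      apply hau₀
      have := eq_neg_of_add_eq_zero_left h
      rw [this, hneg]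
    have hσZ : sq (a u₀ + u₀) ∉ Z₀ := fun h => hu₁0 (haniso _ hu₁U h)
    have hψ : a⁻¹ ∈ 𝒜 := inv_mem ha
    have hinvfix : ∀ u : U, a u = u → a⁻¹ u = u := by
      intro u hu
      rw [Equiv.Perm.inv_eq_iff_eq]; exact hu.symm
    -- the new subgroup U₁ = U₀ ∩ Fix(a)
    let U₁ : AddSubgroup U :=
      { carrier := {u | u ∈ U₀ ∧ a u = u}
        add_mem' := fun {x y} hx hy => ⟨U₀.add_mem hx.1 hy.1, by rw [hadd a ha, hx.2, hy.2]⟩
        zero_mem' := ⟨U₀.zero_mem, perm_map_zero hadd ha⟩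
        neg_mem' := fun {x} hx => by rw [hneg]; exact hx }
    have hU₁mem : ∀ u, u ∈ U₁ ↔ u ∈ U₀ ∧ a u = u := fun u => Iff.rfl
    have hU₁inv : ∀ b ∈ 𝒜, ∀ u ∈ U₁, b u ∈ U₁ := by
      intro b hb u hu
      refine ⟨hU₀ b hb u hu.1, ?_⟩
      have := hcomm a ha b hb
      calc a (b u) = (a * b) u := rfl
        _ = (b * a) u := by rw [this]
        _ = b (a u) := rfl
        _ = b u := by rw [hu.2]
    have haniso₁ : ∀ u ∈ U₁, sq u ∈ Z₀ ⊔ AddSubgroup.zmultiples (sq (a u₀ + u₀)) → u = 0 := by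
      intro u hu hsq
      obtain ⟨y, hy, z, hz, hyz⟩ := AddSubgroup.mem_sup.mp hsq
      obtain ⟨n, rfl⟩ := AddSubgroup.mem_zmultiples_iff.mp hz
      rcases Int.even_or_odd n with ⟨m, rfl⟩ | ⟨m, rfl⟩
      · have h0 : (m + m) • sq (a u₀ + u₀) = 0 := by
          rw [add_zsmul, ← zsmul_add, h2Z, zsmul_zero]
        rw [h0, add_zero] at hyz
        exact haniso u hu.1 (hyz ▸ hy)
      · have h1 : (2 * m + 1) • sq (a u₀ + u₀) = sq (a u₀ + u₀) := by
          rw [add_zsmul, one_zsmul, two_mul, add_zsmul, ← zsmul_add, h2Z, zsmul_zero, zero_add]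
        rw [h1] at hyz
        have hβ0 : β u (a u₀ + u₀) = 0 := by
          rw [hβadd2]
          have : β u (a u₀) = β u u₀ := by
            conv_lhs => rw [← hu.2]
            exact hβinv a ha u u₀
          rw [this]; exact h2Z _
        have hsum : sq (u + (a u₀ + u₀)) ∈ Z₀ := by
          rw [hβ, hβ0, add_zero, ← hyz, add_assoc, h2Z, add_zero]
          exact hy
        have h3 := haniso _ (U₀.add_mem hu.1 hu₁U) hsum
        have h4 : u = a u₀ + u₀ := by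
          have := eq_neg_of_add_eq_zero_left h3
          rw [this, hneg]
        have h5 : a (a u₀ + u₀) = a u₀ + u₀ := by rw [← h4]; exact hu.2
        exact absurd (hfi u₀ h5) hu₁0
    -- the powers of a⁻¹ move U₀
    have hψi : ∀ i, 0 < i → i < r → ¬ ∀ u ∈ U₀, ((a⁻¹) ^ i) u = u := by
      intro i hi0 hir hfix
      have hcop : Nat.Coprime i r :=
        ((Nat.Prime.coprime_iff_not_dvd hrp).mpr (Nat.not_dvd_of_pos_of_lt hi0 hir)).symm
      obtain ⟨m, -, hm⟩ := Nat.exists_mul_mod_eq_one_of_coprime hcop hrp.one_lt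
      have h1 : ((a⁻¹) ^ i) ^ m = a⁻¹ := by
        rw [← pow_mul, pow_eq_pow_mod (i * m) (hexp _ hψ), hm, pow_one]
      have h2 : a⁻¹ u₀ = u₀ := by
        rw [← h1]
        exact Equiv.Perm.pow_apply_eq_self_of_apply_eq_self (hfix u₀ hu₀) m
      apply hau₀
      rw [Equiv.Perm.inv_eq_iff_eq] at h2
      exact h2.symm
    have hψfix : ∀ (i : ℕ) (u : U), a u = u → ((a⁻¹) ^ i) u = u := fun i u hu =>
      Equiv.Perm.pow_apply_eq_self_of_apply_eq_self (hinvfix u hu) i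
    -- the kernel claim
    have hclaim : ∀ b : Equiv.Perm U, b ∈ 𝒜 → (∀ u ∈ U₁, b u = u) →
        ∃ j, j < r ∧ ∀ u ∈ U₀, (b * (a⁻¹) ^ j) u = u := by
      intro b hb hbU
      by_contra hcon
      push Not at hcon
      -- each norm vanishes
      have hN1 : ∀ j ∈ Finset.range r, nrm r (b * (a⁻¹) ^ j) (a u₀ + u₀) = 0 := by
        intro j hj
        have hjr : j < r := Finset.mem_range.mp hj
        refine hkey _ (mul_mem hb (pow_mem hψ j)) ?_ ?_ u₀ hu₀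
        · intro hall
          obtain ⟨u, hu, hne⟩ := hcon j hjr
          exact hne (hall u hu)
        · intro u hu hau
          calc (b * (a⁻¹) ^ j) u = b (((a⁻¹) ^ j) u) := rfl
            _ = b u := by rw [hψfix j u hau]
            _ = u := hbU u ⟨hu, hau⟩
      have hN2 : ∀ i ∈ Finset.range r, i ≠ 0 →
          (b ^ i) (nrm r ((a⁻¹) ^ i) (a u₀ + u₀)) = 0 := by
        intro i hi hi0
        have hir : i < r := Finset.mem_range.mp hi
        rw [hkey _ (pow_mem hψ i) (hψi i (Nat.pos_of_ne_zero hi0) hir)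
          (fun u _ hau => hψfix i u hau) u₀ hu₀]
        exact perm_map_zero hadd (pow_mem hb i)
      have hT0 : ∑ j ∈ Finset.range r, nrm r (b * (a⁻¹) ^ j) (a u₀ + u₀) = 0 :=
        Finset.sum_eq_zero hN1
      have hT1 : ∑ j ∈ Finset.range r, nrm r (b * (a⁻¹) ^ j) (a u₀ + u₀)
          = ∑ i ∈ Finset.range r, (b ^ i) (nrm r ((a⁻¹) ^ i) (a u₀ + u₀)) := by
        unfold nrm
        rw [Finset.sum_comm]
        apply Finset.sum_congr rfl
        intro i _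
        rw [perm_map_sum hadd (pow_mem hb i)]
        apply Finset.sum_congr rfl
        intro j _
        have hc : Commute b ((a⁻¹) ^ j) := hcomm b hb _ (pow_mem hψ j)
        rw [hc.mul_pow, ← pow_mul, mul_comm j i, pow_mul]
        rfl
      have hT2 : ∑ i ∈ Finset.range r, (b ^ i) (nrm r ((a⁻¹) ^ i) (a u₀ + u₀))
          = a u₀ + u₀ := by
        rw [Finset.sum_eq_single 0 hN2
          (fun h => absurd (Finset.mem_range.mpr hrp.pos) h)]
        simp only [pow_zero, Equiv.Perm.coe_one, id_eq]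
        unfold nrm
        simp only [one_pow, Equiv.Perm.coe_one, id_eq, Finset.sum_const, Finset.card_range]
        exact odd_nsmul h2U hodd _
      rw [hT1, hT2] at hT0
      exact hu₁0 hT0
    have hcardK : Nat.card {b : Equiv.Perm U // b ∈ 𝒜 ∧ ∀ u ∈ U₁, b u = u}
        ≤ r * Nat.card {b : Equiv.Perm U // b ∈ 𝒜 ∧ ∀ u ∈ U₀, b u = u} := by
      classical
      choose! j hj using hclaim
      let f : {b : Equiv.Perm U // b ∈ 𝒜 ∧ ∀ u ∈ U₁, b u = u} →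
          Fin r × {b : Equiv.Perm U // b ∈ 𝒜 ∧ ∀ u ∈ U₀, b u = u} :=
        fun b => (⟨j b.1, (hj b.1 b.2.1 b.2.2).1⟩,
          ⟨b.1 * (a⁻¹) ^ j b.1, mul_mem b.2.1 (pow_mem hψ _), (hj b.1 b.2.1 b.2.2).2⟩)
      have hf : Function.Injective f := by
        intro b b' h
        have h1 : j b.1 = j b'.1 := congrArg (fun p => (p.1 : ℕ)) h
        have h2 : b.1 * (a⁻¹) ^ j b.1 = b'.1 * (a⁻¹) ^ j b'.1 :=
          congrArg (fun p => (p.2 : Equiv.Perm U)) h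
        rw [h1] at h2
        exact Subtype.ext (mul_right_cancel h2)
      have := Nat.card_le_card_of_injective f hf
      rw [Nat.card_prod, Nat.card_fin] at this
      exact this
    have hcard₁ : r ^ k * Nat.card {b : Equiv.Perm U // b ∈ 𝒜 ∧ ∀ u ∈ U₁, b u = u}
        ≤ Nat.card 𝒜 := by
      calc r ^ k * Nat.card {b : Equiv.Perm U // b ∈ 𝒜 ∧ ∀ u ∈ U₁, b u = u}
          ≤ r ^ k * (r * Nat.card {b : Equiv.Perm U // b ∈ 𝒜 ∧ ∀ u ∈ U₀, b u = u}) :=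
            Nat.mul_le_mul_left _ hcardK
        _ = r ^ (k + 1) * Nat.card {b : Equiv.Perm U // b ∈ 𝒜 ∧ ∀ u ∈ U₀, b u = u} := by
            rw [pow_succ, mul_assoc]
        _ ≤ Nat.card 𝒜 := hcard
    have hih := ih U₁ (Z₀ ⊔ AddSubgroup.zmultiples (sq (a u₀ + u₀))) hU₁inv haniso₁ hcard₁
    have hle : Z₀ ≤ Z₀ ⊔ AddSubgroup.zmultiples (sq (a u₀ + u₀)) := le_sup_left
    have hidx := AddSubgroup.relIndex_mul_index hle
    have hrel2 : 2 ≤ Z₀.relIndex (Z₀ ⊔ AddSubgroup.zmultiples (sq (a u₀ + u₀))) := by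
      have h0 : Z₀.relIndex (Z₀ ⊔ AddSubgroup.zmultiples (sq (a u₀ + u₀))) ≠ 0 := by
        intro h
        rw [h, zero_mul] at hidx
        exact AddSubgroup.index_ne_zero_of_finite hidx.symm
      have h1 : Z₀.relIndex (Z₀ ⊔ AddSubgroup.zmultiples (sq (a u₀ + u₀))) ≠ 1 := by
        intro h
        rw [AddSubgroup.relIndex_eq_one] at h
        exact hσZ (h (AddSubgroup.mem_sup_right (AddSubgroup.mem_zmultiples _)))
      omega
    calc 2 ^ (k + 1) = 2 * 2 ^ k := by ring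
      _ ≤ Z₀.relIndex (Z₀ ⊔ AddSubgroup.zmultiples (sq (a u₀ + u₀))) *
          (Z₀ ⊔ AddSubgroup.zmultiples (sq (a u₀ + u₀))).index := Nat.mul_le_mul hrel2 hih
      _ = Z₀.index := hidx

theorem aniso_bound (r : ℕ) [Fact r.Prime] (hr : r ≠ 2) (k : ℕ) (U Z : Type u)
    [AddCommGroup U] [AddCommGroup Z] [Finite U] [Finite Z]
    (h2U : ∀ u : U, u + u = 0) (h2Z : ∀ z : Z, z + z = 0)
    (sq : U → Z) (β : U → U → Z)
    (hsq : ∀ u, sq u = 0 → u = 0)
    (hβ : ∀ u v, sq (u + v) = sq u + sq v + β u v)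
    (hβadd : ∀ u v w, β (u + v) w = β u w + β v w)
    (𝒜 : Subgroup (Equiv.Perm U)) (hadd : ∀ a ∈ 𝒜, ∀ u v, a (u + v) = a u + a v)
    (hcomm : ∀ a ∈ 𝒜, ∀ b ∈ 𝒜, a * b = b * a)
    (hexp : ∀ a ∈ 𝒜, a ^ r = 1) (hinv : ∀ a ∈ 𝒜, ∀ u, sq (a u) = sq u)
    (hk : r ^ k ≤ Nat.card 𝒜) : 2 ^ k ≤ Nat.card Z := by
  have h := aux r hr U Z h2U h2Z sq β hβ hβadd 𝒜 hadd hcomm hexp hinv k ⊤ ⊥
    (fun _ _ _ _ => AddSubgroup.mem_top _)
    (fun u _ h => hsq u (by simpa using h)) ?_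
  · simpa using h
  · have h1 : Nat.card {b : Equiv.Perm U // b ∈ 𝒜 ∧ ∀ u ∈ (⊤ : AddSubgroup U), b u = u} = 1 := by
      rw [Nat.card_eq_one_iff_unique]
      refine ⟨⟨fun b b' => Subtype.ext ?_⟩, ⟨⟨1, one_mem _, fun u _ => rfl⟩⟩⟩
      have hb : b.1 = 1 := Equiv.ext (fun u => b.2.2 u (AddSubgroup.mem_top u))
      have hb' : b'.1 = 1 := Equiv.ext (fun u => b'.2.2 u (AddSubgroup.mem_top u))
      rw [hb, hb']
    rw [h1, mul_one]; exact hk

end Cfsg.Agent.Lib.Helper62.Aniso
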