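import Mathlib
import Cfsg.Agent.Lib.Helper93.S64Stmt

/-!
# S1355 (call by helper62): statement pieces

S1355: `M` maximal in a minimal simple group of odd order.  Then
`1 < M_F ≤ M_σ ≤ M' < M` and `M' / M_F` is nilpotent.

`K`, `U`: a sigma-decomposition (S1351, S1352); `E := K ⊔ U` is a complement of `M_σ` in `M`
(`Cfsg.Agent.Lib.Helper90.BG14U.uset_of_decomp hG hM hKU).compl`).
* `M_F ≤ M_σ` (`FLe`), `M_σ ≤ M'` (`SLe`, S1426), `M' < M` (`DLt`).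
* `M_σ` nilpotent: `M_σ = M_F` (`Helper57.BG14FHCore.main_of`), `M_σ ≠ 1`
  (`Helper9.BG11b.sigmaCore_ne_bot`), `M' / M_σ ≅ E'` nilpotent (`QuotNil`, S1415).
* `M_σ` not nilpotent: `U = 1` (`Helper22.BG147N0.nilpotent_of_U_ne_bot`), `K ≠ 1` (`KNe`),
  `M' = M_σ` (`CommEq`, S1365); by the S1364 call (`SetA`, `SetB`, `SylNormal` of
  `Helper93.S64Stmt`) `O := O_q(M_σ)` is a normal Sylow `q`-subgroup of `M` containing
  `K* ≠ 1`, so `1 < O ≤ M_F` (`OLe`, `FNeB`), and `M_σ / O` is nilpotent (`SylNilp`), hence so is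
  `M_σ / M_F` (`QMono`).
-/

set_option autoImplicit false

namespace Cfsg.Agent.Lib.Helper62.S55Stmt

universe u

open Cfsg Cfsg.Agent.Lib.Helper93.S64Stmt

/-- [FLE] (S) `M_F ≤ M_σ`.  `unfold fittingHallOf sigmaCore`, `Subgroup.map_mono`; then
`fittingHall ↥M ≤ piCore (sigma M) ↥M`: `sSup_le`, `rintro N ⟨hNn, hNnil, hNcop⟩`,
`le_sSup ⟨hNn, fun p hp hpN =>
Cfsg.Agent.Lib.Helper57.BG14FHCore.mem_sigma_of_normal_hall hG.2.1 M hM N hNn hNnil hNcop p hp hpN⟩`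
(exactly the second half of `Helper57.BG14FHCore.main_of`). -/
def FLe : Prop :=
  ∀ {G : Type u} [Group G] [Finite G], Cfsg.IsMinSimpleOddOrder G →
  ∀ (M : Subgroup G), IsCoatom M → Cfsg.fittingHallOf M ≤ Cfsg.sigmaCore M

/-- [SLE] (S) `M_σ ≤ M'`.  `E := K ⊔ U`,
`hE := (Cfsg.Agent.Lib.Helper90.BG14U.uset_of_decomp hG hM hKU).compl :
IsComplIn E (sigmaCore M) M`; `(Cfsg.Agent.S1426.result hG M hM E hE).2.1 :
⁅sigmaCore M, E⁆ = sigmaCore M`; `Subgroup.commutator_mono hE.2.1 hE.1`. -/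
def SLe : Prop :=
  ∀ {G : Type u} [Group G] [Finite G], Cfsg.IsMinSimpleOddOrder G →
  ∀ (M K U : Subgroup G), IsCoatom M → Cfsg.IsSigmaDecomposition M K U →
    Cfsg.sigmaCore M ≤ ⁅M, M⁆

/-- [DLT] (S) `M' < M`.  `↥M` is solvable (`hG.2.2.2 M hM.1`) and nontrivial
(`Cfsg.Agent.Lib.Helper9.BG11b.coatom_ne_bot hG hM`), so `commutator ↥M < ⊤`
(`IsSolvable.commutator_lt_top_of_nontrivial`).  `⁅M, M⁆ = (commutator ↥M).map M.subtype`
(`commutator_def`, `Subgroup.map_commutator`, `← MonoidHom.range_eq_map`,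
`Subgroup.range_subtype`), so `⁅M, M⁆ ≤ M` (`Subgroup.map_subtype_le`) and `⁅M, M⁆ = M` would give
`commutator ↥M = ⊤` (`Subgroup.map_injective (Subgroup.subtype_injective M)`). -/
def DLt : Prop :=
  ∀ {G : Type u} [Group G] [Finite G], Cfsg.IsMinSimpleOddOrder G →
  ∀ (M : Subgroup G), IsCoatom M → ⁅M, M⁆ < M

/-- [QUOTNIL] (M) `M' F / F` is nilpotent for every normal `F ⊇ M_σ` of `M`.  `E := K ⊔ U`,
`hE` as in [SLE]; `(Cfsg.Agent.S1415.result hG M hM E hE).1 : IsNilpotent ↥⁅E, E⁆`.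
`π := QuotientGroup.mk' F`, `E' := E.subgroupOf M`.  `E'.map π = ⊤`: `m = a * b` (`hE.2.2.2`),
`b ∈ sigmaCore M = (piCore ..).map M.subtype`, so `⟨b, _⟩ ∈ F` and `π m = π ⟨a, _⟩`.  Hence
`(commutator ↥M).map π = ⁅⊤, ⊤⁆ = ⁅E'.map π, E'.map π⁆ = ⁅E', E'⁆.map π`
(`commutator_def`, `Subgroup.map_commutator`, `Subgroup.map_top_of_surjective`).
`⁅E', E'⁆.map M.subtype = ⁅E, E⁆` (`Subgroup.map_commutator`,
`Subgroup.map_subgroupOf_eq_of_le hE.1`), so `⁅E', E'⁆` is nilpotent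
(`Subgroup.equivMapOfInjective`, `Group.nilpotent_of_mulEquiv`), and so is its image
(`Group.nilpotent_of_surjective (π.subgroupMap _) (π.subgroupMap_surjective _)`). -/
def QuotNil : Prop :=
  ∀ {G : Type u} [Group G] [Finite G], Cfsg.IsMinSimpleOddOrder G →
  ∀ (M K U : Subgroup G), IsCoatom M → Cfsg.IsSigmaDecomposition M K U →
  ∀ (F : Subgroup ↥M) [F.Normal], Cfsg.piCore (Cfsg.sigma M) ↥M ≤ F →
    Group.IsNilpotent ↥((commutator ↥M).map (QuotientGroup.mk' F))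

/-- [KNE] (S) `U = 1` forces `K ≠ 1`.  If `K = ⊥` then `E := K ⊔ U = ⊥` and
`(Cfsg.Agent.S1426.result hG M hM E hE).2.1 : ⁅sigmaCore M, E⁆ = sigmaCore M` gives
`sigmaCore M = ⊥` (`Subgroup.commutator_bot_right`), against
`Cfsg.Agent.Lib.Helper9.BG11b.sigmaCore_ne_bot hG hM`. -/
def KNe : Prop :=
  ∀ {G : Type u} [Group G] [Finite G], Cfsg.IsMinSimpleOddOrder G →
  ∀ (M K U : Subgroup G), IsCoatom M → Cfsg.IsSigmaDecomposition M K U → U = ⊥ → K ≠ ⊥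

/-- [COMMEQ] (S) `U = 1`, `K ≠ 1`: `M' = M_σ` inside `↥M`.
`(Cfsg.Agent.S1365.result hG M hM K U hKU hK1).1 : ⁅M, M⁆ = U ⊔ sigmaCore M`, `U = ⊥`
(`bot_sup_eq`); `⁅M, M⁆ = (commutator ↥M).map M.subtype` (as in [DLT]);
`sigmaCore M = (piCore (sigma M) ↥M).map M.subtype` by definition;
`Subgroup.map_injective (Subgroup.subtype_injective M)`. -/
def CommEq : Prop :=
  ∀ {G : Type u} [Group G] [Finite G], Cfsg.IsMinSimpleOddOrder G →
  ∀ (M K U : Subgroup G), IsCoatom M → Cfsg.IsSigmaDecomposition M K U → K ≠ ⊥ → U = ⊥ →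
    commutator ↥M = Cfsg.piCore (Cfsg.sigma M) ↥M

/-- [PILE] (S) `M_σ` nilpotent: `M_σ ≤ M_F` inside `↥M`.
`Cfsg.Agent.Lib.Helper57.BG14FHCore.main_of hG M hM (Cfsg.Agent.S1350.result hG M hM).1 hnil :
sigmaCore M = fittingHallOf M`; both sides are `(_).map M.subtype`;
`Subgroup.map_injective (Subgroup.subtype_injective M)`, `le_of_eq`. -/
def PiLe : Prop :=
  ∀ {G : Type u} [Group G] [Finite G], Cfsg.IsMinSimpleOddOrder G →
  ∀ (M : Subgroup G), IsCoatom M → Group.IsNilpotent ↥(Cfsg.sigmaCore M) →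
    Cfsg.piCore (Cfsg.sigma M) ↥M ≤ Cfsg.fittingHall ↥M

/-- [OLE] (S, pure) a normal Sylow `q`-subgroup lies in `M_F`.  `O := Oq X H q = pCore q X ⊓ H`
is normal (`Oq_normal`), a `q`-group (`haveI : Fact q.Prime`,
`(Cfsg.Agent.Lib.Helper76.PSolv.pCore_isPGroup q).to_le inf_le_left`), so nilpotent
(`IsPGroup.isNilpotent`), and `(Nat.card O).Coprime O.index`: `Nat.card O = q ^ n`
(`IsPGroup.exists_card_eq`), `Nat.Coprime.pow_left n ((Nat.Prime.coprime_iff_not_dvd hq).mpr h)`.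
`le_sSup ⟨_, _, _⟩`. -/
def OLe : Prop :=
  ∀ {X : Type u} [Group X] [Finite X] (H : Subgroup X) [H.Normal] (q : ℕ), q.Prime →
    ¬ q ∣ (Oq X H q).index → Oq X H q ≤ Cfsg.fittingHall X

/-- [FNEB] (S, pure) `M_F ≠ 1`.  `C := H ⊓ C(R)` has prime order `q` (`SetB.card`,
`SetB.qprime`), so `C ≠ ⊥` (`Subgroup.card_bot`/`Subgroup.card_eq_one`), and
`C ≤ Oq X H q ≤ fittingHall X`. -/
def FNeB : Prop :=
  ∀ {X : Type u} [Group X] [Finite X] (H R : Subgroup X) [H.Normal] (q : ℕ), SetB X H R q →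
    H ⊓ Subgroup.centralizer (R : Set X) ≤ Oq X H q → Oq X H q ≤ Cfsg.fittingHall X →
    Cfsg.fittingHall X ≠ ⊥

/-- [QMONO] (S-M, pure) nilpotency of the image passes to a larger kernel.
`φ := QuotientGroup.map O F (MonoidHom.id X) h : X ⧸ O →* X ⧸ F` (`h : O ≤ F.comap _` from
`O ≤ F`); `(H.map (mk' O)).map φ = H.map (mk' F)` (`Subgroup.map_map`; `φ.comp (mk' O) = mk' F`
by `rfl`/`MonoidHom.ext`); `Group.nilpotent_of_surjective (φ.subgroupMap _)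
(φ.subgroupMap_surjective _)` and transport along the equality (`▸`, or
`Subgroup.equivMapOfInjective`-free: prove `∀ A B : Subgroup Y, A = B → IsNilpotent A →
IsNilpotent B` by `subst`). -/
def QMono : Prop :=
  ∀ {X : Type u} [Group X] (H O F : Subgroup X) [O.Normal] [F.Normal], O ≤ F →
    Group.IsNilpotent ↥(H.map (QuotientGroup.mk' O)) →
    Group.IsNilpotent ↥(H.map (QuotientGroup.mk' F))

/-- [SYLNILP] (helper62; from the proof of `SylNormal`) `H / O_q(H)` is nilpotent. -/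
def SylNilp : Prop :=
  ∀ {X : Type u} [Group X] [Finite X] (H R : Subgroup X) [H.Normal] (q : ℕ),
    SetA X H R → SetB X H R q →
    Group.IsNilpotent ↥(H.map (QuotientGroup.mk' (Oq X H q)))

end Cfsg.Agent.Lib.Helper62.S55Stmt
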