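import Mathlib
import Cfsg.Agent.Lib.Helper96.AltStmt2

set_option autoImplicit false

namespace Cfsg.Agent.Lib.Helper62.AltK1

open Equiv Cfsg.Agent.Lib.Helper96.AltStmt Cfsg.Agent.Lib.Helper96.AltModel
  Cfsg.Agent.Lib.Helper96.AltStmt2

/-- piece K1 of S5165: the alternating group is generated by the `p`-cycles. -/
theorem main : Cfsg.Agent.Lib.Helper96.AltStmt2.AltGenCyc := by
  intro p hp hp2 β _ _ hcard σ hσ
  have hpp : p.Prime := hp.out
  set K : Subgroup (Perm β) :=
    Subgroup.closure {c : Perm β | c.IsCycle ∧ c.support.card = p} with hKdef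
  -- `K` is invariant under conjugation
  have hK : ∀ (g x : Perm β), x ∈ K → g * x * g⁻¹ ∈ K := by
    intro g x hx
    induction hx using Subgroup.closure_induction with
    | mem c hc =>
      refine Subgroup.subset_closure ⟨hc.1.conj, ?_⟩
      rw [Equiv.Perm.card_support_conj]; exact hc.2
    | one => simp
    | mul x y _ _ hx hy =>
      have : g * (x * y) * g⁻¹ = (g * x * g⁻¹) * (g * y * g⁻¹) := by group
      rw [this]; exact mul_mem hx hy
    | inv x _ hx =>
      have : g * x⁻¹ * g⁻¹ = (g * x * g⁻¹)⁻¹ := by group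
      rw [this]; exact inv_mem hx
  -- a `p`-cycle
  obtain ⟨π, hπ⟩ : ∃ g : Perm β, g.cycleType = {p} := by
    rw [Equiv.Perm.exists_with_cycleType_iff]
    refine ⟨by simpa using hcard, ?_⟩
    intro a ha
    rw [Multiset.mem_singleton] at ha
    rw [ha]; exact hpp.two_le
  have hπc : π.IsCycle := by
    rw [← Equiv.Perm.card_cycleType_eq_one, hπ]; simp
  have hπs : π.support.card = p := by
    rw [← Equiv.Perm.sum_cycleType, hπ]; simp
  have hπK : π ∈ K := Subgroup.subset_closure ⟨hπc, hπs⟩
  have hπc' := hπc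
  obtain ⟨a, ha, -⟩ := hπc'
  -- `a`, `π a`, `π (π a)` are distinct
  have h1 : π (π a) ≠ π a := fun h => ha (π.injective h)
  have hord : orderOf π = p := by rw [hπc.orderOf, hπs]
  have h2 : π (π a) ≠ a := by
    have hcop : Nat.Coprime 2 (orderOf π) := by
      rw [hord]
      exact (Nat.coprime_primes Nat.prime_two hpp).mpr (fun h => hp2 h.symm)
    have hsupp : (π ^ 2).support = π.support := Equiv.Perm.support_pow_coprime hcop
    have ha' : a ∈ (π ^ 2).support := by
      rw [hsupp, Equiv.Perm.mem_support]; exact ha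
    rw [Equiv.Perm.mem_support] at ha'
    intro h
    apply ha'
    rw [pow_two, Equiv.Perm.mul_apply]; exact h
  -- the conjugate of `π⁻¹` by the transposition
  set s : Perm β := swap a (π a) with hs
  have hsinv : s⁻¹ = s := by rw [hs, Equiv.swap_inv]
  have hq : s * π⁻¹ * s ∈ K := by
    have := hK s π⁻¹ (inv_mem hπK)
    rwa [hsinv] at this
  have hprod : π * (s * π⁻¹ * s) = swap (π a) (π (π a)) * swap (π a) a := by
    have e1 : π * s * π⁻¹ = swap (π a) (π (π a)) := by
      rw [hs, Equiv.swap_apply_apply]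
    have e2 : swap (π a) a = s := by rw [hs, Equiv.swap_comm]
    rw [← e1, e2]; group
  have h3c : Equiv.Perm.IsThreeCycle (π * (s * π⁻¹ * s)) := by
    rw [hprod]
    exact Equiv.Perm.isThreeCycle_swap_mul_swap_same h1.symm ha h2
  have h3K : π * (s * π⁻¹ * s) ∈ K := mul_mem hπK hq
  -- all three-cycles lie in `K`
  have hall : ∀ τ : Perm β, τ.IsThreeCycle → τ ∈ K := by
    intro τ hτ
    have hconj : IsConj (π * (s * π⁻¹ * s)) τ := by
      rw [Equiv.Perm.isConj_iff_cycleType_eq]
      rw [h3c.cycleType, hτ.cycleType]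
    obtain ⟨g, hg⟩ := isConj_iff.mp hconj
    rw [← hg]
    exact hK g _ h3K
  have halt : alternatingGroup β ≤ K := by
    rw [← Equiv.Perm.closure_three_cycles_eq_alternating, Subgroup.closure_le]
    intro τ hτ
    exact hall τ hτ
  exact halt (Equiv.Perm.mem_alternatingGroup.mpr hσ)

end Cfsg.Agent.Lib.Helper62.AltK1
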