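import Mathlib
import Cfsg.Agent.Lib.Helper96.AltStmt2

set_option autoImplicit false

namespace Cfsg.Agent.Lib.Helper62.AltK2

open Equiv Cfsg.Agent.Lib.Helper96.AltStmt Cfsg.Agent.Lib.Helper96.AltModel
  Cfsg.Agent.Lib.Helper96.AltStmt2

variable (p : ℕ) [Fact p.Prime] {β δ : Type}

/-- the inverse of a diagonal element -/
theorem diag_inv (s : β → (ZMod p)ˣ) :
    (mk p δ (1 : Perm β) s (fun _ => 0))⁻¹ = mk p δ (1 : Perm β) (fun x => (s x)⁻¹) (fun _ => 0) := by
  rw [mk_inv, mk_eq_iff]
  refine ⟨inv_one, ?_, ?_⟩
  · funext x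
    simp only [inv_one, Perm.coe_one, id_eq]
  · funext x
    simp only [mul_zero, neg_zero]

/-- a diagonal element conjugates translations to translations -/
theorem diag_conj (s : β → (ZMod p)ˣ) (b : β → ZMod p) :
    mk p δ (1 : Perm β) s (fun _ => 0) * mk p δ (1 : Perm β) (fun _ => 1) b *
      (mk p δ (1 : Perm β) s (fun _ => 0))⁻¹ =
    mk p δ (1 : Perm β) (fun _ => 1) (fun x => (s x : ZMod p) * b x) := by
  rw [diag_inv, mk_mul, mk_mul, mk_eq_iff]
  refine ⟨by simp, ?_, ?_⟩
  · funext x; simp
  · funext x; simp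

/-- diagonal elements normalize the translations -/
theorem diag_mem_normalizer (s : β → (ZMod p)ˣ) :
    mk p δ (1 : Perm β) s (fun _ => 0) ∈
      Subgroup.normalizer (Tr p β δ : Set (Perm (β × ZMod p ⊕ δ))) := by
  rw [Subgroup.mem_normalizer_iff]
  intro h
  constructor
  · rintro ⟨b, rfl⟩
    rw [diag_conj]
    exact ⟨_, rfl⟩
  · rintro ⟨b, hb⟩
    have h1 : h = mk p δ (1 : Perm β) (fun x => (s x)⁻¹) (fun _ => 0) *
        mk p δ (1 : Perm β) (fun _ => 1) b *
        (mk p δ (1 : Perm β) (fun x => (s x)⁻¹) (fun _ => 0))⁻¹ := by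
      rw [← hb, ← diag_inv]; group
    rw [h1, diag_conj]
    exact ⟨_, rfl⟩

omit [Fact p.Prime] in
/-- `Opp p R` is normalized by the normalizer of `R` -/
theorem opp_conj {G : Type} [Group G] (R : Subgroup G) (n : G)
    (hn : n ∈ Subgroup.normalizer (R : Set G)) (k : G) (hk : k ∈ Opp p R) :
    n * k * n⁻¹ ∈ Opp p R := by
  unfold Opp at hk ⊢
  induction hk using Subgroup.closure_induction with
  | mem c hc =>
    refine Subgroup.subset_closure ⟨?_, ?_⟩
    · exact mul_mem (mul_mem hn hc.1) (inv_mem hn)
    · obtain ⟨e, he⟩ := hc.2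
      refine ⟨e, ?_⟩
      have := orderOf_injective (MulAut.conj n).toMonoidHom (MulAut.conj n).injective c
      rw [← he, ← this]
      rfl
  | one => simp
  | mul x y _ _ hx hy =>
    have : n * (x * y) * n⁻¹ = (n * x * n⁻¹) * (n * y * n⁻¹) := by group
    rw [this]; exact mul_mem hx hy
  | inv x _ hx =>
    have : n * x⁻¹ * n⁻¹ = (n * x * n⁻¹)⁻¹ := by group
    rw [this]; exact inv_mem hx

/-- piece K2 of S5165: the diagonal elements of product one lie in `O^{p'}(N(Tr))`. -/
theorem main : Cfsg.Agent.Lib.Helper96.AltStmt2.DiagOpp := by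
  intro hLift p hp hp2 β δ _ _ _ _ hcard t ht
  have hpp : p.Prime := hp.out
  have h3 : 3 ≤ Fintype.card β := by
    have : 2 ≤ p := hpp.two_le
    have : 3 ≤ p := by omega
    omega
  -- the basic diagonal elements
  have hD : ∀ (i j : β), i ≠ j → ∀ a : (ZMod p)ˣ,
      mk p δ (1 : Perm β) (fun x => if x = i then a else if x = j then a⁻¹ else 1) (fun _ => 0) ∈
        Opp p (Tr p β δ) := by
    intro i j hij a
    obtain ⟨k, -, hk⟩ : ∃ k ∈ (Finset.univ : Finset β), k ∉ ({i, j} : Finset β) := by
      apply Finset.exists_mem_notMem_of_card_lt_card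
      have : ({i, j} : Finset β).card ≤ 2 := Finset.card_le_two
      rw [Finset.card_univ]; omega
    have hki : k ≠ i := fun h => hk (by simp [h])
    have hkj : k ≠ j := fun h => hk (by simp [h])
    set τ : Perm β := swap i j * swap j k with hτ
    have hτsign : Perm.sign τ = 1 := by
      rw [hτ, Perm.sign_mul, Perm.sign_swap hij, Perm.sign_swap (Ne.symm hkj)]; rfl
    have hρ : mk p δ τ (fun _ => 1) (fun _ => 0) ∈ Opp p (Tr p β δ) :=
      hLift p hp2 β δ hcard τ hτsign
    set s : β → (ZMod p)ˣ := fun x => if x = i then a else 1 with hs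
    have hy := diag_mem_normalizer p (δ := δ) s
    have h1 := opp_conj p (Tr p β δ) _ hy _ hρ
    have h2 := mul_mem h1 (inv_mem hρ)
    have heq : mk p δ (1 : Perm β) s (fun _ => 0) * mk p δ τ (fun _ => 1) (fun _ => 0) *
        (mk p δ (1 : Perm β) s (fun _ => 0))⁻¹ * (mk p δ τ (fun _ => 1) (fun _ => 0))⁻¹ =
        mk p δ (1 : Perm β) (fun x => if x = i then a else if x = j then a⁻¹ else 1)
          (fun _ => 0) := by
      rw [diag_inv, mk_inv, mk_mul, mk_mul, mk_mul, mk_eq_iff]
      refine ⟨by group, ?_, ?_⟩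
      · funext x
        have hτi : τ⁻¹ i = k := by
          rw [Perm.inv_eq_iff_eq, hτ, Perm.mul_apply, swap_apply_right, swap_apply_right]
        have hτj : τ⁻¹ j = i := by
          rw [Perm.inv_eq_iff_eq, hτ, Perm.mul_apply, swap_apply_of_ne_of_ne hij hki.symm,
            swap_apply_left]
        have hτi' : τ i = j := by
          rw [hτ, Perm.mul_apply, swap_apply_of_ne_of_ne hij hki.symm, swap_apply_left]
        have e1 : τ ((1 : Perm β) (τ⁻¹ x)) = x := Equiv.apply_symm_apply τ x
        rw [e1, mul_one, inv_one, mul_one]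
        by_cases hxi : x = i
        · rw [hxi, hτi]
          show (if i = i then a else 1) * (if k = i then a else 1)⁻¹ = _
          rw [if_pos rfl, if_neg hki, if_pos rfl, inv_one, mul_one]
        · by_cases hxj : x = j
          · rw [hxj, hτj]
            show (if j = i then a else 1) * (if i = i then a else 1)⁻¹ = _
            rw [if_neg hij.symm, if_pos rfl, if_neg hij.symm, if_pos rfl, one_mul]
          · have hz : τ⁻¹ x ≠ i := by
              intro h
              apply hxj
              have hx : x = τ i := Perm.inv_eq_iff_eq.mp h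
              rw [hx, hτi']
            show (if x = i then a else 1) * (if τ⁻¹ x = i then a else 1)⁻¹ = _
            rw [if_neg hxi, if_neg hz, if_neg hxi, if_neg hxj, inv_one, mul_one]
      · funext x
        simp only [mul_zero, neg_zero, add_zero]
    rw [heq] at h2
    exact h2
  -- induction
  obtain ⟨i₀⟩ : Nonempty β := by
    rw [← Fintype.card_pos_iff]; omega
  have key : ∀ s : Finset β, i₀ ∉ s →
      mk p δ (1 : Perm β)
        (fun x => if x ∈ s then t x else if x = i₀ then (∏ i ∈ s, t i)⁻¹ else 1) (fun _ => 0) ∈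
        Opp p (Tr p β δ) := by
    intro s
    induction s using Finset.induction_on with
    | empty =>
      intro _
      have : mk p δ (1 : Perm β)
          (fun x => if x ∈ (∅ : Finset β) then t x else if x = i₀ then (∏ i ∈ (∅ : Finset β), t i)⁻¹ else 1)
          (fun _ => 0) = 1 := by
        rw [← mk_one p, mk_eq_iff]
        refine ⟨rfl, ?_, rfl⟩
        funext x; simp
      rw [this]; exact one_mem _
    | insert i s' hi ih =>
      intro hi₀
      have hi₀s : i₀ ∉ s' := fun h => hi₀ (Finset.mem_insert_of_mem h)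
      have hii₀ : i ≠ i₀ := fun h => hi₀ (h ▸ Finset.mem_insert_self i s')
      have h1 := ih hi₀s
      have h2 := hD i i₀ hii₀ (t i)
      have h3 := mul_mem h1 h2
      have heq : mk p δ (1 : Perm β)
          (fun x => if x ∈ s' then t x else if x = i₀ then (∏ i ∈ s', t i)⁻¹ else 1) (fun _ => 0) *
          mk p δ (1 : Perm β) (fun x => if x = i then t i else if x = i₀ then (t i)⁻¹ else 1)
            (fun _ => 0) =
          mk p δ (1 : Perm β)
            (fun x => if x ∈ insert i s' then t x else
              if x = i₀ then (∏ i ∈ insert i s', t i)⁻¹ else 1) (fun _ => 0) := by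
        rw [mk_mul, mk_eq_iff]
        refine ⟨by simp, ?_, ?_⟩
        · funext x
          simp only [Perm.coe_one, id_eq]
          rw [Finset.prod_insert hi]
          by_cases hxi : x = i
          · subst hxi
            simp [hi, hii₀]
          · by_cases hxs : x ∈ s'
            · have hx0 : x ≠ i₀ := fun h => hi₀s (h ▸ hxs)
              simp [hxi, hxs, hx0]
            · by_cases hx0 : x = i₀
              · subst hx0
                simp [hxi, hxs, mul_comm]
              · simp [hxi, hxs, hx0]
        · funext x; simp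
      rw [heq] at h3
      exact h3
  have hfin := key (Finset.univ.erase i₀) (Finset.notMem_erase i₀ _)
  have heq : (fun x => if x ∈ Finset.univ.erase i₀ then t x else
      if x = i₀ then (∏ i ∈ Finset.univ.erase i₀, t i)⁻¹ else 1) = t := by
    funext x
    by_cases hx0 : x = i₀
    · subst hx0
      simp only [Finset.mem_erase, ne_eq, not_true_eq_false, Finset.mem_univ, and_true,
        if_false, if_true]
      rw [inv_eq_iff_mul_eq_one, mul_comm, Finset.mul_prod_erase Finset.univ t (Finset.mem_univ x)]
      exact ht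
    · simp [hx0]
  rw [heq] at hfin
  exact hfin

end Cfsg.Agent.Lib.Helper62.AltK2
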