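import Mathlib

/-!
Pure group theory behind Bender–Glauberman 12.11 (piece BN of S1421, helper62):
an abelian Sylow `p`-subgroup `P` of `G` lying in a subgroup `E` with `E' ` abelian is normal in
`E`, provided `Ω₁(P) = A` is normal in `E`, `C_G(A) ≤ E`, `P ≤ N_G(P)'` and `P` centralizes every
noncyclic abelian `r`-subgroup (`r ≠ p`) of `E` that it normalizes.
-/

set_option autoImplicit false

namespace Cfsg.Agent.Lib.Helper62.BG12BNcore

open scoped commutatorElement

variable {G : Type*} [Group G]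

/-- A subgroup containing all the prime power order powers of `g` contains `g`. -/
theorem mem_of_prime_pow_mem [Finite G] (T : Subgroup G) :
    ∀ (n : ℕ) (g : G), orderOf g = n →
      (∀ (r : ℕ) (y : G), r.Prime → y ∈ Subgroup.zpowers g → (∃ k : ℕ, y ^ r ^ k = 1) → y ∈ T) →
      g ∈ T := by
  intro n
  induction n using Nat.strong_induction_on with
  | _ n ih =>
    intro g hg h
    by_cases hn1 : n = 1
    · rw [hn1, orderOf_eq_one_iff] at hg
      rw [hg]
      exact T.one_mem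
    have hn0 : n ≠ 0 := by
      rw [← hg]
      exact (orderOf_pos g).ne'
    set r := n.minFac with hr
    have hrp : r.Prime := Nat.minFac_prime hn1
    set a := n.factorization r with ha
    set m := n / r ^ a with hm
    have hnm : r ^ a * m = n := Nat.ordProj_mul_ordCompl_eq_self n r
    have hcop : Nat.Coprime r m := Nat.coprime_ordCompl hrp hn0
    have hcop' : Nat.Coprime (r ^ a) m := Nat.Coprime.pow_left a hcop
    have ha1 : 1 ≤ a := by
      have : r ∣ n := Nat.minFac_dvd n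
      exact (hrp.factorization_pos_of_dvd hn0 this)
    have hm0 : m ≠ 0 := by
      intro h0
      rw [h0, mul_zero] at hnm
      exact hn0 hnm.symm
    have hmn : m < n := by
      have h1 : 2 ≤ r ^ a := by
        calc 2 ≤ r := hrp.two_le
          _ = r ^ 1 := (pow_one r).symm
          _ ≤ r ^ a := Nat.pow_le_pow_right hrp.pos ha1
      have : 2 * m ≤ r ^ a * m := Nat.mul_le_mul_right m h1
      omega
    -- the `r`-part
    have h1 : g ^ m ∈ T := by
      apply h r (g ^ m) hrp (Subgroup.pow_mem _ (Subgroup.mem_zpowers g) m)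
      refine ⟨a, ?_⟩
      rw [← pow_mul, mul_comm, hnm, ← hg]
      exact pow_orderOf_eq_one g
    -- the `r'`-part
    have h2 : g ^ r ^ a ∈ T := by
      have ho : orderOf (g ^ r ^ a) = m := by
        rw [orderOf_pow' g (pow_ne_zero a hrp.ne_zero), hg]
        have : Nat.gcd n (r ^ a) = r ^ a := Nat.gcd_eq_right (Dvd.intro m hnm)
        rw [this]
      apply ih m hmn (g ^ r ^ a) ho
      intro r' y hr' hy hy'
      apply h r' y hr' _ hy'
      have : Subgroup.zpowers (g ^ r ^ a) ≤ Subgroup.zpowers g := by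
        rw [Subgroup.zpowers_le]
        exact Subgroup.pow_mem _ (Subgroup.mem_zpowers g) _
      exact this hy
    have hb := Nat.gcd_eq_gcd_ab (r ^ a) m
    rw [hcop'] at hb
    have hg1 : g = (g ^ r ^ a) ^ (Nat.gcdA (r ^ a) m) * (g ^ m) ^ (Nat.gcdB (r ^ a) m) := by
      rw [← zpow_natCast g (r ^ a), ← zpow_natCast g m, ← zpow_mul, ← zpow_mul, ← zpow_add, ← hb]
      simp
    rw [hg1]
    exact T.mul_mem (T.zpow_mem h2 _) (T.zpow_mem h1 _)

/-- Invariance under conjugation by the elements of a subgroup gives normalization. -/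
theorem le_normalizer_of_conj_mem (H R : Subgroup G)
    (h : ∀ g ∈ H, ∀ z ∈ R, g * z * g⁻¹ ∈ R) : H ≤ Subgroup.normalizer (R : Set G) := by
  intro g hg
  rw [Subgroup.mem_normalizer_iff]
  intro z
  constructor
  · exact h g hg z
  · intro hz
    have := h g⁻¹ (H.inv_mem hg) _ hz
    simpa [mul_assoc] using this

/-- The derived group of a group normalizing a cyclic subgroup centralizes it. -/
theorem commutator_le_centralizer_of_isCyclic (N R : Subgroup G)
    (hN : N ≤ Subgroup.normalizer (R : Set G)) (hR : IsCyclic R) :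
    ⁅N, N⁆ ≤ Subgroup.centralizer (R : Set G) := by
  rw [Subgroup.commutator_le]
  intro g₁ h₁ g₂ h₂
  have hcomm : ∀ σ τ : MulAut R, σ * τ = τ * σ := by
    intro σ τ
    apply (IsCyclic.mulAutMulEquiv R).injective
    rw [map_mul, map_mul, mul_comm]
  set φ := R.normalizerMonoidHom with hφ
  have hker : (⁅(⟨g₁, hN h₁⟩ : Subgroup.normalizer (R : Set G)), ⟨g₂, hN h₂⟩⁆) ∈ φ.ker := by
    rw [MonoidHom.mem_ker, map_commutatorElement, commutatorElement_def,
      hcomm (φ ⟨g₁, hN h₁⟩) (φ ⟨g₂, hN h₂⟩)]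
    group
  rw [Subgroup.normalizerMonoidHom_ker, Subgroup.mem_subgroupOf] at hker
  exact hker

/-- A `p`-subgroup normalized by a Sylow `p`-subgroup lies in it. -/
theorem le_sylow_of_normalizes [Finite G] {p : ℕ} [Fact p.Prime] (P : Sylow p G)
    {Q : Subgroup G} (hQ : IsPGroup p Q)
    (hPQ : (P : Subgroup G) ≤ Subgroup.normalizer (Q : Set G)) : Q ≤ (P : Subgroup G) := by
  have h1 : IsPGroup p ((P : Subgroup G) ⊔ Q : Subgroup G) :=
    IsPGroup.to_sup_of_normal_right' P.2 hQ hPQ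
  have h2 := P.is_maximal' h1 le_sup_left
  calc Q ≤ (P : Subgroup G) ⊔ Q := le_sup_right
    _ = (P : Subgroup G) := h2

/-- A `p`-subgroup normalizing a Sylow `p`-subgroup lies in it. -/
theorem le_sylow_of_le_normalizer [Finite G] {p : ℕ} [Fact p.Prime] (P : Sylow p G)
    {Q : Subgroup G} (hQ : IsPGroup p Q)
    (hQP : Q ≤ Subgroup.normalizer ((P : Subgroup G) : Set G)) : Q ≤ (P : Subgroup G) := by
  have h1 : IsPGroup p (Q ⊔ (P : Subgroup G) : Subgroup G) :=
    IsPGroup.to_sup_of_normal_right' hQ P.2 hQP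
  have h2 := P.is_maximal' h1 le_sup_right
  calc Q ≤ Q ⊔ (P : Subgroup G) := le_sup_left
    _ = (P : Subgroup G) := h2

theorem core [Finite G] {p : ℕ} [Fact p.Prime] (E A : Subgroup G) (P : Sylow p G)
    (hPE : (P : Subgroup G) ≤ E)
    (hPc : ∀ a ∈ (P : Subgroup G), ∀ b ∈ (P : Subgroup G), a * b = b * a)
    (hAP : A ≤ (P : Subgroup G)) (hAe : ∀ a ∈ A, a ^ p = 1)
    (hAn : E ≤ Subgroup.normalizer (A : Set G))
    (hCE : Subgroup.centralizer (A : Set G) ≤ E)
    (hΩ : ∀ x ∈ (P : Subgroup G), x ^ p = 1 → x ∈ A)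
    (hD : ∀ a ∈ ⁅E, E⁆, ∀ b ∈ ⁅E, E⁆, a * b = b * a)
    (hder : (P : Subgroup G) ≤ ⁅Subgroup.normalizer ((P : Subgroup G) : Set G),
      Subgroup.normalizer ((P : Subgroup G) : Set G)⁆)
    (hcc : ∀ r : ℕ, r.Prime → r ≠ p → ∀ R : Subgroup G, R ≤ E → IsPGroup r R → ¬ IsCyclic R →
      (P : Subgroup G) ≤ Subgroup.normalizer (R : Set G) →
      ∀ x ∈ (P : Subgroup G), ∀ y ∈ R, x * y = y * x) :
    E ≤ Subgroup.normalizer ((P : Subgroup G) : Set G) := by
  have hp : p.Prime := Fact.out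
  set N : Subgroup G := Subgroup.normalizer ((P : Subgroup G) : Set G) with hN
  set C : Subgroup G := Subgroup.centralizer (A : Set G) with hC
  have hPN : (P : Subgroup G) ≤ N := Subgroup.le_normalizer
  -- (s1) `N_G(P) ≤ N_G(A)`
  have hNA : N ≤ Subgroup.normalizer (A : Set G) := by
    apply le_normalizer_of_conj_mem
    intro g hg a ha
    apply hΩ
    · exact (Subgroup.mem_normalizer_iff.mp hg a).mp (hAP ha)
    · rw [conj_pow, hAe a ha, mul_one, mul_inv_cancel]
  -- (s2) `N_G(A)` normalizes `C_G(A)`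
  have hNC : ∀ g ∈ Subgroup.normalizer (A : Set G), ∀ c ∈ C, g * c * g⁻¹ ∈ C := by
    intro g hg c hc
    rw [hC, Subgroup.mem_centralizer_iff]
    intro a ha
    have h1 : g⁻¹ * a * g ∈ A := by
      have := (Subgroup.mem_normalizer_iff.mp
        ((Subgroup.normalizer (A : Set G)).inv_mem hg) a).mp ha
      simpa using this
    have h2 := Subgroup.mem_centralizer_iff.mp hc _ h1
    calc a * (g * c * g⁻¹) = g * ((g⁻¹ * a * g) * c) * g⁻¹ := by group
      _ = g * (c * (g⁻¹ * a * g)) * g⁻¹ := by rw [h2]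
      _ = g * c * g⁻¹ * a := by group
  have hPC : (P : Subgroup G) ≤ C := by
    intro x hx
    rw [hC, Subgroup.mem_centralizer_iff]
    intro a ha
    exact hPc a (hAP ha) x hx
  -- (s3) `K₁ = [C, P]`
  set K₁ : Subgroup G := ⁅C, (P : Subgroup G)⁆ with hK₁
  have hK₁D : K₁ ≤ ⁅E, E⁆ := Subgroup.commutator_mono hCE hPE
  have hK₁E : K₁ ≤ E := by
    refine hK₁D.trans ?_
    rw [Subgroup.commutator_le]
    intro a ha b hb
    rw [commutatorElement_def]
    exact E.mul_mem (E.mul_mem (E.mul_mem ha hb) (E.inv_mem ha)) (E.inv_mem hb)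
  have hNK₁ : ∀ g ∈ N, ∀ k ∈ K₁, g * k * g⁻¹ ∈ K₁ := by
    intro g hg k hk
    have h1 : K₁.map (MulAut.conj g).toMonoidHom ≤ K₁ := by
      rw [hK₁, Subgroup.map_commutator]
      apply Subgroup.commutator_mono
      · rintro _ ⟨c, hc, rfl⟩
        exact hNC g (hNA hg) c hc
      · rintro _ ⟨x, hx, rfl⟩
        exact (Subgroup.mem_normalizer_iff.mp hg x).mp hx
    exact h1 ⟨k, hk, rfl⟩
  -- (s4) `P` centralizes `K₁`
  have hK₁P : K₁ ≤ Subgroup.centralizer ((P : Subgroup G) : Set G) := by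
    intro k hk
    apply mem_of_prime_pow_mem _ (orderOf k) k rfl
    intro r y hr hy hyr
    have hyK : y ∈ K₁ := by
      have : Subgroup.zpowers k ≤ K₁ := by
        rw [Subgroup.zpowers_le]
        exact hk
      exact this hy
    -- the `r`-part of `K₁`
    let R₀ : Subgroup G :=
      { carrier := {z | z ∈ K₁ ∧ ∃ n : ℕ, z ^ r ^ n = 1}
        mul_mem' := by
          rintro z₁ z₂ ⟨h1, n₁, e₁⟩ ⟨h2, n₂, e₂⟩
          refine ⟨K₁.mul_mem h1 h2, n₁ + n₂, ?_⟩
          have hc : Commute z₁ z₂ := hD z₁ (hK₁D h1) z₂ (hK₁D h2)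
          rw [hc.mul_pow, pow_add, pow_mul, e₁, one_pow, mul_comm (r ^ n₁), pow_mul, e₂, one_pow,
            mul_one]
        one_mem' := ⟨K₁.one_mem, 0, by simp⟩
        inv_mem' := by
          rintro z ⟨h1, n, e⟩
          exact ⟨K₁.inv_mem h1, n, by rw [inv_pow, e, inv_one]⟩ }
    have hR₀mem : ∀ z, z ∈ R₀ ↔ z ∈ K₁ ∧ ∃ n : ℕ, z ^ r ^ n = 1 := fun z => Iff.rfl
    have hyR : y ∈ R₀ := (hR₀mem y).2 ⟨hyK, hyr⟩
    have hR₀E : R₀ ≤ E := fun z hz => hK₁E ((hR₀mem z).1 hz).1
    have hR₀p : IsPGroup r R₀ := by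
      rintro ⟨z, hz⟩
      obtain ⟨n, hn⟩ := ((hR₀mem z).1 hz).2
      exact ⟨n, Subtype.ext (by simpa using hn)⟩
    have hNR₀ : N ≤ Subgroup.normalizer (R₀ : Set G) := by
      apply le_normalizer_of_conj_mem
      intro g hg z hz
      obtain ⟨h1, n, hn⟩ := (hR₀mem z).1 hz
      refine (hR₀mem _).2 ⟨hNK₁ g hg z h1, n, ?_⟩
      rw [conj_pow, hn, mul_one, mul_inv_cancel]
    rw [Subgroup.mem_centralizer_iff]
    by_cases hrp : r = p
    · subst hrp
      have h1 : R₀ ≤ (P : Subgroup G) := le_sylow_of_normalizes P hR₀p (hPN.trans hNR₀)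
      intro x hx
      exact hPc x hx y (h1 hyR)
    · by_cases hcyc : IsCyclic R₀
      · have h1 := commutator_le_centralizer_of_isCyclic N R₀ hNR₀ hcyc
        intro x hx
        have h2 := Subgroup.mem_centralizer_iff.mp (h1 (hder hx)) y hyR
        exact h2.symm
      · intro x hx
        exact hcc r hr hrp R₀ hR₀E hR₀p hcyc (hPN.trans hNR₀) x hx y hyR
  -- (s5) `C ≤ N_G(P)`
  have hCN : C ≤ N := by
    apply le_normalizer_of_conj_mem
    intro c hc x hx
    set k : G := ⁅c, x⁆ with hk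
    have hkK : k ∈ K₁ := Subgroup.commutator_mem_commutator hc hx
    have hkP := hK₁P hkK
    have hkx : Commute k x := (Subgroup.mem_centralizer_iff.mp hkP x hx).symm
    have hcx : c * x * c⁻¹ = k * x := by
      rw [hk, commutatorElement_def]
      group
    obtain ⟨n, hn⟩ := (IsPGroup.iff_card.mp P.2)
    have hxn : x ^ p ^ n = 1 := by
      have := pow_card_eq_one' (G := (P : Subgroup G)) (x := ⟨x, hx⟩)
      rw [hn] at this
      simpa using congrArg Subtype.val this
    have hkn : k ^ p ^ n = 1 := by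
      have h1 : (k * x) ^ p ^ n = 1 := by
        rw [← hcx, conj_pow, hxn, mul_one, mul_inv_cancel]
      rw [hkx.mul_pow, hxn, mul_one] at h1
      exact h1
    have hkp : IsPGroup p (Subgroup.zpowers k) := by
      have h1 : orderOf k ∣ p ^ n := orderOf_dvd_of_pow_eq_one hkn
      obtain ⟨j, -, hj⟩ := (Nat.dvd_prime_pow hp).1 h1
      apply IsPGroup.of_card (n := j)
      rw [Nat.card_zpowers, hj]
    have hkN : Subgroup.zpowers k ≤ N := by
      rw [Subgroup.zpowers_le]
      exact Subgroup.centralizer_le_normalizer _ hkP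
    have hkP' : k ∈ (P : Subgroup G) :=
      le_sylow_of_le_normalizer P hkp hkN (Subgroup.mem_zpowers k)
    rw [hcx]
    exact (P : Subgroup G).mul_mem hkP' hx
  -- (s6) Frattini
  apply le_normalizer_of_conj_mem
  intro g hg x hx
  have hQ : IsPGroup p ((P : Subgroup G).map (MulAut.conj g).toMonoidHom) := P.2.map _
  have hQN : (P : Subgroup G).map (MulAut.conj g).toMonoidHom ≤ N := by
    rintro _ ⟨z, hz, rfl⟩
    exact hCN (hNC g (hAn hg) z (hPC hz))
  exact le_sylow_of_le_normalizer P hQ hQN ⟨x, hx, rfl⟩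

end Cfsg.Agent.Lib.Helper62.BG12BNcore
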