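import Mathlib
import Cfsg.Prelude.Def_OddOrderLocal
import Cfsg.Agent.Lib.Helper62.Wielandt

/-!
Bender–Glauberman section 12, transitivity step (helper62).

`TR` : let `A` be elementary abelian of order `p ^ 2` such that the maximal `A`-invariant
`q`-subgroups are permuted transitively by `O_{p'}(C_G(A))` (S1394), and let `Q₁` be an `A`-invariant
Sylow `q`-subgroup of `G`.  Then there are a Sylow `p`-subgroup `S ≥ A` of `G` and `k ∈ C_G(A)` with
`S ≤ N_G(Q₁^k)'` and `N_G(S) = O_{p'}(C_G(S)) (N_G(S) ∩ N_G(Q₁^k))` (from S1395 and S1411, which are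
explicit hypotheses here).
-/

set_option autoImplicit false

namespace Cfsg.Agent.Lib.Helper62.BG12trA

open Subgroup

variable {G : Type*} [Group G]

/-- A Sylow subgroup has a complement in its normalizer (Schur–Zassenhaus). -/
theorem exists_compl_normalizer [Finite G] {p : ℕ} [Fact p.Prime] (P : Sylow p G) :
    ∃ V : Subgroup G,
      Cfsg.IsComplIn (P : Subgroup G) V (Subgroup.normalizer ((P : Subgroup G) : Set G)) := by
  set N : Subgroup G := Subgroup.normalizer ((P : Subgroup G) : Set G) with hN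
  have hPN : (P : Subgroup G) ≤ N := Subgroup.le_normalizer
  have : ((P : Subgroup G).subgroupOf N).Normal := Subgroup.normal_in_normalizer
  have hp : p.Prime := Fact.out
  have hcop : Nat.Coprime (Nat.card ((P : Subgroup G).subgroupOf N))
      ((P : Subgroup G).subgroupOf N).index := by
    have h1 : Nat.card ((P : Subgroup G).subgroupOf N) = Nat.card (P : Subgroup G) :=
      Nat.card_congr (Subgroup.subgroupOfEquivOfLe hPN).toEquiv
    obtain ⟨n, hn⟩ := (IsPGroup.iff_card).mp P.2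
    rw [h1, hn]
    apply Nat.Coprime.pow_left
    rw [Nat.Prime.coprime_iff_not_dvd hp]
    intro hdvd
    have h2 : (P : Subgroup G).relIndex N ∣ (P : Subgroup G).index :=
      Subgroup.relIndex_dvd_index_of_le hPN
    exact P.not_dvd_index (hdvd.trans h2)
  obtain ⟨H, hH⟩ := Subgroup.exists_right_complement'_of_coprime hcop
  refine ⟨H.map N.subtype, hPN, Subgroup.map_subtype_le H, ?_, ?_⟩
  · rw [eq_bot_iff]
    rintro x ⟨hxP, y, hyH, rfl⟩
    have hy : y ∈ (P : Subgroup G).subgroupOf N ⊓ H := ⟨Subgroup.mem_subgroupOf.mpr hxP, hyH⟩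
    rw [hH.disjoint.eq_bot] at hy
    rw [Subgroup.mem_bot] at hy
    rw [Subgroup.mem_bot, hy]
    rfl
  · intro m hm
    obtain ⟨⟨a, b⟩, hab⟩ := hH.2 ⟨m, hm⟩
    refine ⟨(a : N), Subgroup.mem_subgroupOf.mp a.2, (b : N), ⟨b, b.2, rfl⟩, ?_⟩
    have := congrArg Subtype.val hab
    simpa using this.symm

theorem isPGroup_of_primes [Finite G] {q : ℕ} (R : Subgroup G)
    (h : ∀ r : ℕ, r.Prime → r ∣ Nat.card R → r ∈ ({q} : Set ℕ)) : IsPGroup q R := by
  have hpos : Nat.card R ≠ 0 := Nat.card_pos.ne'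
  have := Nat.eq_prime_pow_of_unique_prime_dvd hpos (p := q)
    (fun {d} hd hdn => by simpa using h d hd hdn)
  exact IsPGroup.of_card this

theorem eq_of_le_of_not_dvd_index [Finite G] {q : ℕ} (hq : q.Prime) {Q R : Subgroup G}
    (hR : IsPGroup q R) (hidx : ¬ q ∣ Q.index) (hQR : Q ≤ R) : R = Q := by
  have : Fact q.Prime := ⟨hq⟩
  have h1 : Q.relIndex R * R.index = Q.index := Subgroup.relIndex_mul_index hQR
  have h2 : ¬ q ∣ Q.relIndex R := fun h => hidx (h1 ▸ Dvd.dvd.mul_right h _)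
  have h3 : Q.relIndex R ∣ Nat.card R := Subgroup.relIndex_dvd_card Q R
  obtain ⟨n, hn⟩ := (IsPGroup.iff_card).mp hR
  rw [hn] at h3
  obtain ⟨j, hj, hjeq⟩ := (Nat.dvd_prime_pow hq).mp h3
  have hj0 : j = 0 := by
    by_contra hne
    exact h2 (hjeq ▸ dvd_pow_self q hne)
  rw [hj0, pow_zero] at hjeq
  exact le_antisymm (Subgroup.relIndex_eq_one.mp hjeq) hQR

theorem isPGroup_of_elemAb [Finite G] {p : ℕ} [Fact p.Prime] {A : Subgroup G}
    (hAe : Cfsg.IsElementaryAbelian p A) : IsPGroup p A := by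
  intro a
  refine ⟨1, ?_⟩
  have := hAe.2 a a.2
  apply Subtype.ext
  simpa using this

theorem not_isPGroup_top [Finite G] (hG : Cfsg.IsMinSimpleOddOrder G) {p : ℕ} [Fact p.Prime] :
    ¬ IsPGroup p G := by
  intro hp
  obtain ⟨hs, hnc, -⟩ := hG.2
  have := hs
  have hc : Subgroup.center G ≠ ⊥ := by
    have := hp.center_nontrivial
    exact (Subgroup.nontrivial_iff_ne_bot _).mp this
  have htop : Subgroup.center G = ⊤ :=
    ((inferInstance : (Subgroup.center G).Normal).eq_bot_or_eq_top).resolve_left hc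
  apply hnc
  refine ⟨⟨fun a b => ?_⟩⟩
  have ha : a ∈ Subgroup.center G := htop ▸ Subgroup.mem_top a
  exact (Subgroup.mem_center_iff.mp ha b).symm

theorem TR [Finite G] (hG : Cfsg.IsMinSimpleOddOrder G) {p : ℕ} [Fact p.Prime] (A : Subgroup G)
    (hAe : Cfsg.IsElementaryAbelian p A) (hAc : Nat.card A = p ^ 2)
    {q : ℕ} (hq : q.Prime)
    (Q₁ : Subgroup G) (hQ₁ : IsPGroup q Q₁) (hQidx : ¬ q ∣ Q₁.index)
    (hAQ : A ≤ Subgroup.normalizer (Q₁ : Set G))
    (htr : ∀ R₁ ∈ Cfsg.maxInvSubgroups ⊤ A {q}, ∀ R₂ ∈ Cfsg.maxInvSubgroups ⊤ A {q},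
      ∃ k ∈ Cfsg.piCoreOf (Cfsg.primesNotDvd (Nat.card A)) (Subgroup.centralizer (A : Set G)),
        R₂ = R₁.map (MulAut.conj k).toMonoidHom)
    (h95 : ∀ P : Subgroup G, P ≠ ⊤ → (∀ r : ℕ, r.Prime → r ∣ Nat.card P → r ∣ Nat.card A) →
      A ≤ P → (A.subgroupOf P).IsSubnormal →
      Cfsg.maxInvSubgroups ⊤ P {q} ⊆ Cfsg.maxInvSubgroups ⊤ A {q} ∧
      ∀ Q ∈ Cfsg.maxInvSubgroups ⊤ P {q},
        P ⊓ ⁅Subgroup.normalizer (P : Set G), Subgroup.normalizer (P : Set G)⁆ ≤
            ⁅Subgroup.normalizer (Q : Set G), Subgroup.normalizer (Q : Set G)⁆ ∧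
        Subgroup.normalizer (P : Set G) =
          Cfsg.piCoreOf (Cfsg.primesNotDvd (Nat.card A)) (Subgroup.centralizer (P : Set G)) ⊔
            (Subgroup.normalizer (P : Set G) ⊓ Subgroup.normalizer (Q : Set G)))
    (h11 : ∀ (P : Sylow p G) (V : Subgroup G),
      Cfsg.IsComplIn (P : Subgroup G) V (Subgroup.normalizer ((P : Subgroup G) : Set G)) →
      (P : Subgroup G) ≤ ⁅Subgroup.normalizer ((P : Subgroup G) : Set G),
        Subgroup.normalizer ((P : Subgroup G) : Set G)⁆) :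
    ∃ (S : Sylow p G) (k : G), A ≤ (S : Subgroup G) ∧ k ∈ Subgroup.centralizer (A : Set G) ∧
      (S : Subgroup G) ≤
        Subgroup.normalizer ((Q₁.map (MulAut.conj k).toMonoidHom : Subgroup G) : Set G) ∧
      (S : Subgroup G) ≤
        ⁅Subgroup.normalizer ((Q₁.map (MulAut.conj k).toMonoidHom : Subgroup G) : Set G),
          Subgroup.normalizer ((Q₁.map (MulAut.conj k).toMonoidHom : Subgroup G) : Set G)⁆ ∧
      Subgroup.normalizer ((S : Subgroup G) : Set G) =
        Cfsg.piCoreOf (Cfsg.primesNotDvd (Nat.card A))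
            (Subgroup.centralizer ((S : Subgroup G) : Set G)) ⊔
          (Subgroup.normalizer ((S : Subgroup G) : Set G) ⊓
            Subgroup.normalizer ((Q₁.map (MulAut.conj k).toMonoidHom : Subgroup G) : Set G)) := by
  classical
  have hp : p.Prime := Fact.out
  have hAp : IsPGroup p A := isPGroup_of_elemAb hAe
  obtain ⟨S, hAS⟩ := hAp.exists_le_sylow
  have hSne : (S : Subgroup G) ≠ ⊤ := by
    intro htop
    apply not_isPGroup_top hG (p := p)
    have h1 : IsPGroup p (⊤ : Subgroup G) := htop ▸ S.2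
    intro g
    obtain ⟨n, hn⟩ := h1 ⟨g, Subgroup.mem_top g⟩
    exact ⟨n, by simpa using congrArg Subtype.val hn⟩
  have hSπ : ∀ r : ℕ, r.Prime → r ∣ Nat.card (S : Subgroup G) → r ∣ Nat.card A := by
    intro r hr hrS
    obtain ⟨n, hn⟩ := (IsPGroup.iff_card).mp S.2
    rw [hn] at hrS
    have : r = p := (Nat.prime_dvd_prime_iff_eq hr hp).mp (hr.dvd_of_dvd_pow hrS)
    rw [this, hAc]
    exact dvd_pow_self p (by norm_num)
  have hsn : (A.subgroupOf (S : Subgroup G)).IsSubnormal := by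
    have : Group.IsNilpotent (S : Subgroup G) := S.2.isNilpotent
    exact Cfsg.Agent.Lib.Helper62.Wielandt.isSubnormal_of_isNilpotent _
  obtain ⟨hsub, hd⟩ := h95 (S : Subgroup G) hSne hSπ hAS hsn
  -- a maximal S-invariant q-subgroup
  have hbot : (⊥ : Subgroup G) ∈ Cfsg.invSubgroups ⊤ (S : Subgroup G) {q} := by
    refine ⟨bot_le, ?_, ?_⟩
    · intro r hr hrd
      rw [Subgroup.card_bot] at hrd
      exact absurd (Nat.dvd_one.mp hrd) hr.ne_one
    · intro x _
      rw [Subgroup.mem_normalizer_iff]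
      intro h
      simp
  obtain ⟨Q, -, hQmax⟩ := (Set.toFinite (Cfsg.invSubgroups ⊤ (S : Subgroup G) {q})).exists_le_maximal hbot
  have hQ : Q ∈ Cfsg.maxInvSubgroups ⊤ (S : Subgroup G) {q} :=
    ⟨hQmax.prop, fun R hR hQR => le_antisymm (hQmax.le_of_ge hR hQR) hQR⟩
  have hQA : Q ∈ Cfsg.maxInvSubgroups ⊤ A {q} := hsub hQ
  -- Q₁ is maximal A-invariant
  have hQ₁A : Q₁ ∈ Cfsg.maxInvSubgroups ⊤ A {q} := by
    refine ⟨⟨le_top, ?_, hAQ⟩, ?_⟩
    · intro r hr hrd
      have : Fact q.Prime := ⟨hq⟩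
      obtain ⟨n, hn⟩ := (IsPGroup.iff_card).mp hQ₁
      rw [hn] at hrd
      exact (Nat.prime_dvd_prime_iff_eq hr hq).mp (hr.dvd_of_dvd_pow hrd)
    · intro R hR hQR
      exact eq_of_le_of_not_dvd_index hq (isPGroup_of_primes R hR.2.1) hQidx hQR
  obtain ⟨k, hk, hQk⟩ := htr Q₁ hQ₁A Q hQA
  have hkC : k ∈ Subgroup.centralizer (A : Set G) := by
    obtain ⟨y, -, rfl⟩ := hk
    exact y.2
  obtain ⟨V, hV⟩ := exists_compl_normalizer S
  have h1 := h11 S V hV
  obtain ⟨hd1, hd2⟩ := hd Q hQ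
  refine ⟨S, k, hAS, hkC, ?_, ?_, ?_⟩
  · rw [← hQk]; exact hQ.1.2.2
  · rw [← hQk]
    exact (le_inf le_rfl h1).trans hd1
  · rw [← hQk]; exact hd2

/-- A `p`-subgroup of `p'`-index inside a nilpotent normal subgroup is normal. -/
theorem normal_of_le_nilpotent {X : Type*} [Group X] [Finite X] (D : Subgroup X) [D.Normal]
    (hD : Group.IsNilpotent D) {p : ℕ} [Fact p.Prime] (H : Subgroup X) (hHD : H ≤ D)
    (hH : IsPGroup p H) (hidx : ¬ p ∣ H.index) : H.Normal := by
  have hp : p.Prime := Fact.out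
  have hH' : IsPGroup p (H.subgroupOf D) := hH.comap_subtype
  obtain ⟨P, hP⟩ := hH'.exists_le_sylow
  have hPn : (P : Subgroup D).Normal := inferInstance
  have hPc : (P : Subgroup D).Characteristic := P.characteristic_of_normal hPn
  have hTn : ((P : Subgroup D).map D.subtype).Normal := inferInstance
  have hHT : H ≤ (P : Subgroup D).map D.subtype := by
    intro x hx
    exact ⟨⟨x, hHD hx⟩, hP (Subgroup.mem_subgroupOf.mpr hx), rfl⟩
  have hTp : IsPGroup p ((P : Subgroup D).map D.subtype) := P.2.map _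
  have := eq_of_le_of_not_dvd_index hp hTp hidx hHT
  rw [← this]
  exact hTn

/-- If `A` is a maximal elementary abelian `p`-subgroup, then `A` contains every element of order
dividing `p` of its centralizer. -/
theorem mem_of_maximal {p : ℕ} {A : Subgroup G} (hAe : Cfsg.IsElementaryAbelian p A)
    (hmax : ∀ B : Subgroup G, Cfsg.IsElementaryAbelian p B → A ≤ B → B = A)
    {x : G} (hx : x ∈ Subgroup.centralizer (A : Set G)) (hxp : x ^ p = 1) : x ∈ A := by
  have hAcomm : ∀ a ∈ A, ∀ b ∈ A, a * b = b * a := by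
    intro a ha b hb
    have h := hAe.1.is_comm.comm ⟨a, ha⟩ ⟨b, hb⟩
    exact congrArg Subtype.val h
  have hcomm : ∀ a ∈ (A : Set G) ∪ {x}, ∀ b ∈ (A : Set G) ∪ {x}, a * b = b * a := by
    rintro a (ha | ha) b (hb | hb)
    · exact hAcomm a ha b hb
    · rw [Set.mem_singleton_iff] at hb
      rw [hb]
      exact hx a ha
    · rw [Set.mem_singleton_iff] at ha
      rw [ha]
      exact (hx b hb).symm
    · rw [Set.mem_singleton_iff] at ha hb
      rw [ha, hb]
  have hBc : IsMulCommutative (Subgroup.closure ((A : Set G) ∪ {x})) :=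
    Subgroup.isMulCommutative_closure hcomm
  have hBcomm : ∀ a ∈ Subgroup.closure ((A : Set G) ∪ {x}),
      ∀ b ∈ Subgroup.closure ((A : Set G) ∪ {x}), a * b = b * a := by
    intro a ha b hb
    have h := hBc.is_comm.comm ⟨a, ha⟩ ⟨b, hb⟩
    exact congrArg Subtype.val h
  have hBe : Cfsg.IsElementaryAbelian p (Subgroup.closure ((A : Set G) ∪ {x})) := by
    refine ⟨hBc, ?_⟩
    intro b hb
    induction hb using Subgroup.closure_induction with
    | mem y hy =>
      rcases hy with hy | hy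
      · exact hAe.2 y hy
      · rw [Set.mem_singleton_iff] at hy
        rw [hy]; exact hxp
    | one => exact one_pow p
    | mul y z hy hz ihy ihz =>
      have hc : Commute y z := hBcomm y hy z hz
      rw [hc.mul_pow, ihy, ihz, one_mul]
    | inv y hy ihy => rw [inv_pow, ihy, inv_one]
  have hAB : A ≤ Subgroup.closure ((A : Set G) ∪ {x}) := by
    intro a ha
    exact Subgroup.subset_closure (Or.inl ha)
  have hB := hmax _ hBe hAB
  rw [← hB]
  exact Subgroup.subset_closure (Or.inr rfl)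

/-- A subgroup of order `p` inside a group of order `p ^ 2`. -/
theorem exists_card_prime_le [Finite G] {p : ℕ} [Fact p.Prime] {A : Subgroup G}
    (hAc : Nat.card A = p ^ 2) : ∃ A₀ : Subgroup G, A₀ ≤ A ∧ Nat.card A₀ = p := by
  have hdvd : p ^ 1 ∣ Nat.card A := by
    rw [hAc]; exact pow_dvd_pow p (by norm_num)
  obtain ⟨K, hK⟩ := Sylow.exists_subgroup_card_pow_prime p hdvd
  refine ⟨K.map A.subtype, Subgroup.map_subtype_le K, ?_⟩
  rw [← Nat.card_congr (K.equivMapOfInjective A.subtype A.subtype_injective).toEquiv, hK, pow_one]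

/-- In a simple group, a nontrivial proper subgroup normalized by a maximal subgroup has that
maximal subgroup as its normalizer. -/
theorem normalizer_eq_of_coatom (hs : IsSimpleGroup G) {M X : Subgroup G} (hM : IsCoatom M)
    (hX1 : X ≠ ⊥) (hX2 : X ≠ ⊤) (hMX : M ≤ Subgroup.normalizer (X : Set G)) :
    Subgroup.normalizer (X : Set G) = M := by
  have hne : Subgroup.normalizer (X : Set G) ≠ ⊤ := by
    intro htop
    have hn : X.Normal := Subgroup.normalizer_eq_top_iff.mp htop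
    rcases hn.eq_bot_or_eq_top with h | h
    · exact hX1 h
    · exact hX2 h
  by_contra hcon
  exact hne (hM.2 _ (lt_of_le_of_ne hMX (Ne.symm hcon)))

theorem exists_largest_prime {n : ℕ} (hn : 1 < n) :
    ∃ q : ℕ, q.Prime ∧ q ∣ n ∧ ∀ r : ℕ, r.Prime → r ∣ n → r ≤ q := by
  have hne : n.primeFactors.Nonempty := Nat.nonempty_primeFactors.mpr hn
  have hmem := Nat.mem_primeFactors.mp (Finset.max'_mem _ hne)
  refine ⟨n.primeFactors.max' hne, hmem.1, hmem.2.1, ?_⟩
  intro r hr hrn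
  exact Finset.le_max' _ r (Nat.mem_primeFactors.mpr ⟨hr, hrn, hmem.2.2⟩)

end Cfsg.Agent.Lib.Helper62.BG12trA
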