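import Mathlib
import Cfsg.Agent.Lib.Helper80.BTStmt

set_option autoImplicit false

namespace Cfsg.Agent.Lib.Helper62.BTNT3

theorem main : Cfsg.Agent.Lib.Helper80.BTStmt.NT3 := by
  intro p q b g₀ hp hq hpq hp2 heq hg
  obtain ⟨u, hu⟩ : ∃ u, p = 2 * u + 1 := by
    rcases hp.eq_two_or_odd with h | h
    · exact absurd h hp2
    · exact ⟨p / 2, by omega⟩
  subst hu
  have hu1 : 1 ≤ u := by
    rcases Nat.eq_zero_or_pos u with h | h
    · subst h; exact absurd hp (by norm_num)
    · exact h
  have h1 : 2 * u * (u + 1) = q ^ b * g₀ := by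
    have h3 : (2 * u + 1 - 1) * (2 * u + 1 + 1) = 2 * (2 * u * (u + 1)) := by
      simp only [Nat.add_sub_cancel]; ring
    rw [h3] at heq
    exact Nat.eq_of_mul_eq_mul_left two_pos heq
  have hg' : g₀ < 2 * u := by simpa using hg
  by_cases hq2 : q = 2
  · subst hq2
    rcases b with _ | b'
    · exfalso
      simp only [pow_zero, one_mul] at h1
      nlinarith
    · have hpos : 0 < 2 ^ b' := pow_pos two_pos b'
      have h2 : u * (u + 1) = 2 ^ b' * g₀ := by
        rw [pow_succ] at h1
        have h4 : 2 * (u * (u + 1)) = 2 * (2 ^ b' * g₀) := by rw [← mul_assoc, h1]; ring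
        exact Nat.eq_of_mul_eq_mul_left two_pos h4
      have hdv : 2 ^ b' ∣ u * (u + 1) := ⟨g₀, h2⟩
      by_cases hev : 2 ∣ u
      · have hc : Nat.Coprime (2 ^ b') (u + 1) :=
          Nat.Coprime.pow_left b' ((Nat.Prime.coprime_iff_not_dvd Nat.prime_two).2 (by omega))
        obtain ⟨t, ht⟩ := hc.dvd_of_dvd_mul_right hdv
        have h5 : t * (u + 1) = g₀ := by
          have h6 : 2 ^ b' * (t * (u + 1)) = 2 ^ b' * g₀ := by
            rw [← h2]; nth_rewrite 2 [ht]; ring
          exact Nat.eq_of_mul_eq_mul_left hpos h6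
        have ht1 : t = 1 := by
          rcases t with _ | _ | t
          · simp at ht; omega
          · rfl
          · exfalso; nlinarith
        subst ht1
        refine ⟨b' + 1, Or.inl ?_⟩
        rw [pow_succ]; omega
      · have hc : Nat.Coprime (2 ^ b') u :=
          Nat.Coprime.pow_left b' ((Nat.Prime.coprime_iff_not_dvd Nat.prime_two).2 hev)
        obtain ⟨t, ht⟩ := hc.dvd_of_dvd_mul_left hdv
        have h5 : u * t = g₀ := by
          have h6 : 2 ^ b' * (u * t) = 2 ^ b' * g₀ := by
            rw [← h2, ht]; ring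
          exact Nat.eq_of_mul_eq_mul_left hpos h6
        have ht1 : t = 1 := by
          rcases t with _ | _ | t
          · simp at ht
          · rfl
          · exfalso; nlinarith
        subst ht1
        refine ⟨b' + 1, Or.inr ?_⟩
        rw [pow_succ]; omega
  · exfalso
    have hpos : 0 < q ^ b := pow_pos hq.pos b
    have hq2c : Nat.Coprime q 2 := (Nat.coprime_primes hq Nat.prime_two).2 hq2
    have hdv0 : q ^ b ∣ 2 * (u * (u + 1)) := ⟨g₀, by rw [← h1]; ring⟩
    have hdv : q ^ b ∣ u * (u + 1) := (Nat.Coprime.pow_left b hq2c).dvd_of_dvd_mul_left hdv0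
    by_cases hqu : q ∣ u
    · have hqu1 : ¬ q ∣ u + 1 := by
        intro h
        have : q ∣ 1 := (Nat.dvd_add_right hqu).1 h
        exact hq.one_lt.ne' (Nat.dvd_one.1 this)
      have hc : Nat.Coprime (q ^ b) (u + 1) :=
        Nat.Coprime.pow_left b ((Nat.Prime.coprime_iff_not_dvd hq).2 hqu1)
      obtain ⟨t, ht⟩ := hc.dvd_of_dvd_mul_right hdv
      have h5 : 2 * t * (u + 1) = g₀ := by
        have h6 : q ^ b * (2 * t * (u + 1)) = q ^ b * g₀ := by
          rw [← h1]; nth_rewrite 2 [ht]; ring
        exact Nat.eq_of_mul_eq_mul_left hpos h6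
      rcases t with _ | t
      · simp at ht; omega
      · nlinarith
    · have hc : Nat.Coprime (q ^ b) u :=
        Nat.Coprime.pow_left b ((Nat.Prime.coprime_iff_not_dvd hq).2 hqu)
      obtain ⟨t, ht⟩ := hc.dvd_of_dvd_mul_left hdv
      have h5 : 2 * u * t = g₀ := by
        have h6 : q ^ b * (2 * u * t) = q ^ b * g₀ := by
          rw [← h1, ht]; ring
        exact Nat.eq_of_mul_eq_mul_left hpos h6
      rcases t with _ | t
      · simp at ht
      · nlinarith

end Cfsg.Agent.Lib.Helper62.BTNT3
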