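import Mathlib
import Cfsg.Agent.Lib.Helper80.BTStmt

set_option autoImplicit false

namespace Cfsg.Agent.Lib.Helper62.BTTYPES

open Cfsg Cfsg.Agent.Lib.Helper80.BTStmt

universe u

/-- `|N_G(P) : C_G(P)|` divides `p - 1` (same proof as `Helper80.FTRES.relIndex_dvd`). -/
theorem relIndex_dvd' {G : Type u} [Group G] [Finite G] {p : ℕ} [Fact p.Prime] (P : Sylow p G)
    (hP : Nat.card P = p) :
    (Subgroup.centralizer ((P : Subgroup G) : Set G)).relIndex
      (Subgroup.normalizer ((P : Subgroup G) : Set G)) ∣ p - 1 := by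
  have hp : p.Prime := Fact.out
  have hP' : Nat.card ↥(P : Subgroup G) = p := hP
  have hcyc : IsCyclic ↥(P : Subgroup G) := isCyclic_of_prime_card hP'
  have h1 : Nat.card (MulAut ↥(P : Subgroup G)) = p - 1 := by
    rw [IsCyclic.card_mulAut, hP', Nat.totient_prime hp]
  have hker := Subgroup.normalizerMonoidHom_ker (P : Subgroup G)
  rw [Subgroup.relIndex, ← hker, Subgroup.index_ker, ← h1]
  exact Subgroup.card_subgroup_dvd_card _

/-- `e ∣ p - 1`. -/
theorem e_dvd {G : Type u} [Group G] [Finite G] {p : ℕ} (hp : p.Prime) (c : Ctx G p) :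
    c.e ∣ p - 1 := by
  haveI : Fact p.Prime := ⟨hp⟩
  have h := relIndex_dvd' c.P c.hP
  rwa [c.he] at h

/-- `g₀ > 0`. -/
theorem g0_pos {G : Type u} [Group G] [Finite G] {p q b g₀ : ℕ} (hH : Hyp G p q b g₀) :
    0 < g₀ := by
  obtain ⟨hsimp, hncyc, hp, hq, hpq, hcard, hg⟩ := hH
  rcases Nat.eq_zero_or_pos g₀ with h | h
  · subst h
    rw [mul_zero] at hcard
    exact absurd hcard Nat.card_pos.ne'
  · exact h

/-- `1 ≤ e ≤ p - 1`, `g₀ + 2 ≤ p`. -/
theorem e_bounds {G : Type u} [Group G] [Finite G] {p q b g₀ : ℕ} (hH : Hyp G p q b g₀)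
    (c : Ctx G p) : 1 ≤ c.e ∧ c.e + 1 ≤ p ∧ g₀ + 2 ≤ p := by
  have hg := hH.2.2.2.2.2.2
  have hp := hH.2.2.1
  have hd := e_dvd hp c
  have hp1 : 0 < p - 1 := by omega
  have hle := Nat.le_of_dvd hp1 hd
  have hpos : 0 < c.e := Nat.pos_of_dvd_of_pos hd hp1
  refine ⟨hpos, by omega, by omega⟩

theorem main : Cfsg.Agent.Lib.Helper80.BTStmt.TYPES := by
  intro G _ _ p q b g₀ hH c hY
  obtain ⟨he1, hep, hgp⟩ := e_bounds hH c
  have hg0pos := g0_pos hH
  rcases c.hε with hε | hε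
  · left
    refine ⟨hε, fun θ hθ => ?_⟩
    obtain ⟨hqf, hfd, hf2, -⟩ := hY.2 θ hθ
    have hfle : charDegree (θ : G → ℂ) ≤ g₀ := Nat.le_of_dvd hg0pos hfd
    have hcong := c.hYdeg θ hθ
    rw [hε, one_mul] at hcong
    have hc2 : charDegree (θ : G → ℂ) ≡ c.e [MOD p] := by exact_mod_cast hcong
    exact Nat.ModEq.eq_of_lt_of_lt hc2 (by omega) (by omega)
  · right
    refine ⟨hε, fun θ hθ => ?_⟩
    obtain ⟨hqf, hfd, hf2, -⟩ := hY.2 θ hθ
    have hfle : charDegree (θ : G → ℂ) ≤ g₀ := Nat.le_of_dvd hg0pos hfd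
    have hcong := c.hYdeg θ hθ
    rw [hε] at hcong
    have hdvd : (p : ℤ) ∣ ((charDegree (θ : G → ℂ) + c.e : ℕ) : ℤ) := by
      have h := hcong.dvd
      have h2 : ((charDegree (θ : G → ℂ) + c.e : ℕ) : ℤ) =
          -(-1 * (c.e : ℤ) - (charDegree (θ : G → ℂ) : ℤ)) := by
        push_cast; ring
      rw [h2]
      exact (dvd_neg).2 h
    have hdvd' : p ∣ charDegree (θ : G → ℂ) + c.e := by exact_mod_cast hdvd
    obtain ⟨k, hk⟩ := hdvd'
    have hk1 : k = 1 := by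
      rcases k with _ | _ | k
      · simp at hk; omega
      · rfl
      · exfalso; nlinarith
    subst hk1; omega

end Cfsg.Agent.Lib.Helper62.BTTYPES
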