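import Mathlib
import Cfsg.Agent.Lib.Helper80.BTStmt
import Cfsg.Agent.Lib.Helper80.Integrality
import Cfsg.Agent.Lib.Helper62.BTTYPES

set_option autoImplicit false

namespace Cfsg.Agent.Lib.Helper62.BTPOW2A

open Cfsg Cfsg.Agent.Lib.Helper80.BTStmt

universe u

theorem charDegree_one_fn {G : Type u} [Group G] :
    charDegree (fun _ : G => (1 : ℂ)) = 1 := by
  simp [Cfsg.charDegree]

theorem main : Cfsg.Agent.Lib.Helper80.BTStmt.POW2A := by
  intro G _ _ p b g₀ hH c hX hY hII hfg he2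
  obtain ⟨he1, hep, hgp⟩ := Cfsg.Agent.Lib.Helper62.BTTYPES.e_bounds hH c
  have hg0pos := Cfsg.Agent.Lib.Helper62.BTTYPES.g0_pos hH
  obtain ⟨hsimp, hncyc, hp, hq, hpq, hcard, hg⟩ := hH
  -- the set `X`
  have hXcard : c.X.ncard = 2 := by
    rw [← Nat.card_coe_set_eq, c.hX, he2]
  obtain ⟨x, y, hxy, hXeq⟩ := Set.ncard_eq_two.1 hXcard
  obtain ⟨t, htX, ht⟩ := hX.1
  -- WLOG `t = x`
  obtain ⟨χ₀, hne, hXeq'⟩ : ∃ χ₀ : IrrCharacter G, t ≠ χ₀ ∧ c.X = {t, χ₀} := by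
    rw [hXeq] at htX
    rcases htX with h | h
    · exact ⟨y, by rw [h]; exact hxy, by rw [h]; exact hXeq⟩
    · have h' : t = y := h
      exact ⟨x, by rw [h']; exact hxy.symm, by rw [h', hXeq]; exact Set.pair_comm x y⟩
  have hχ₀X : χ₀ ∈ c.X := by rw [hXeq']; simp
  have hχ₀ne : (χ₀ : G → ℂ) ≠ (fun _ => 1) := by
    intro h
    exact hne (Subtype.ext (by rw [ht, h]))
  -- a member of `Y`
  obtain ⟨θ, hθ⟩ := hY.1
  have hf : charDegree (θ : G → ℂ) = g₀ := hfg θ hθ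
  have hfe : charDegree (θ : G → ℂ) + c.e = p := hII.2 θ hθ
  -- degree equation
  have h1 : ¬ p ∣ orderOf (1 : G) := by
    rw [orderOf_one]
    exact hp.one_lt.ne' ∘ Nat.dvd_one.1
  have hdeg := c.hYX θ hθ 1 h1
  rw [hXeq', finsum_mem_pair hne,
    Cfsg.Agent.Lib.Helper80.Integrality.apply_one_eq_charDegree
      (Cfsg.Agent.Lib.Helper80.Integrality.isCharacter_of_isIrrCharacter θ.2),
    Cfsg.Agent.Lib.Helper80.Integrality.apply_one_eq_charDegree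
      (Cfsg.Agent.Lib.Helper80.Integrality.isCharacter_of_isIrrCharacter χ₀.2),
    Cfsg.Agent.Lib.Helper80.Integrality.apply_one_eq_charDegree
      (Cfsg.Agent.Lib.Helper80.Integrality.isCharacter_of_isIrrCharacter t.2)] at hdeg
  have htdeg : charDegree (t : G → ℂ) = 1 := by rw [ht]; exact charDegree_one_fn
  rw [htdeg, hII.1, hf] at hdeg
  have hdegZ : (-1 : ℤ) * (g₀ : ℤ) = c.εX t * 1 + c.εX χ₀ * (charDegree (χ₀ : G → ℂ) : ℤ) := by
    exact_mod_cast hdeg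
  -- `εX t = 1`
  have hεt : c.εX t = 1 := by
    obtain ⟨h1', h2', -⟩ := c.hεX t htX
    rcases h1' with h | h
    · exact h
    · exfalso
      rw [htdeg, h] at h2'
      have h3 := h2'.dvd
      have h4 : (p : ℤ) ∣ 2 := by
        have h5 : (-1 : ℤ) - ((1 : ℕ) : ℤ) = -2 := by norm_num
        rw [h5] at h3
        exact (dvd_neg.1 h3)
      have h6 : p ∣ 2 := by exact_mod_cast h4
      have := Nat.le_of_dvd two_pos h6
      omega
  -- `εX χ₀ = -1`, degree `g₀ + 1`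
  have hd : charDegree (χ₀ : G → ℂ) = g₀ + 1 := by
    obtain ⟨h1', -, -⟩ := c.hεX χ₀ hχ₀X
    rw [hεt] at hdegZ
    rcases h1' with h | h
    · exfalso
      rw [h] at hdegZ
      have : (0 : ℤ) ≤ (charDegree (χ₀ : G → ℂ) : ℤ) := Int.natCast_nonneg _
      have : (0 : ℤ) ≤ (g₀ : ℤ) := Int.natCast_nonneg _
      linarith
    · rw [h] at hdegZ
      have : (charDegree (χ₀ : G → ℂ) : ℤ) = (g₀ : ℤ) + 1 := by linarith
      exact_mod_cast this
  have hpg : p = g₀ + 2 := by omega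
  -- divisibility
  have hdvd := Cfsg.Agent.Lib.Helper80.Integrality.charDegree_dvd_card χ₀
  rw [hd, hcard, hpg] at hdvd
  have hc1 : Nat.Coprime (g₀ + 1) g₀ := Nat.Coprime.symm (by simp)
  have hc2 : Nat.Coprime (g₀ + 1) (g₀ + 2) := by
    have : g₀ + 2 = (g₀ + 1) + 1 := rfl
    rw [this]; simp
  have hdvd2 : g₀ + 1 ∣ 2 ^ b := hc2.dvd_of_dvd_mul_left (hc1.dvd_of_dvd_mul_right hdvd)
  obtain ⟨a, -, ha⟩ := (Nat.dvd_prime_pow Nat.prime_two).1 hdvd2
  have ha1 : 1 ≤ a := by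
    rcases Nat.eq_zero_or_pos a with h | h
    · subst h; simp at ha; omega
    · exact h
  refine ⟨⟨a, by rw [hpg, ← ha]⟩, χ₀, hχ₀X, hχ₀ne, a, ha1, by rw [hd, ha]⟩

end Cfsg.Agent.Lib.Helper62.BTPOW2A
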