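import Mathlib
import Cfsg.Agent.Lib.Lead.BrHalfStmt

set_option autoImplicit false
set_option linter.style.haveILetI false

/-! Piece OrdP of S4504 part C: elements of order `p` are conjugate to powers of `x`.
Also basic facts on the Sylow `p`-subgroup `P = ⟨x⟩` of order `p`. -/

namespace Cfsg.Agent.Lib.Helper62.BrCOrdP

open Cfsg Cfsg.Agent.Lib.Lead.BrHalf

universe u

variable {L : Type u} [Group L] [Fintype L] {p : ℕ} [Fact p.Prime]

theorem orderOf_x (c : Ctx L p) : orderOf c.x = p := by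
  have hp : p.Prime := Fact.out
  have h1 : orderOf c.x ∣ p := by
    have h := Subgroup.orderOf_dvd_natCard (c.P : Subgroup L) c.hx
    rw [c.hP] at h
    exact h
  rcases (Nat.dvd_prime hp).mp h1 with h | h
  · exact absurd (orderOf_eq_one_iff.mp h) c.hx1
  · exact h

theorem P_eq (c : Ctx L p) : (c.P : Subgroup L) = Subgroup.zpowers c.x := by
  symm
  apply Subgroup.eq_of_le_of_card_ge
  · rw [Subgroup.zpowers_le]; exact c.hx
  · rw [Nat.card_zpowers, orderOf_x c, c.hP]

/-- every Sylow `p`-subgroup has order `p`. -/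
theorem card_sylow (c : Ctx L p) (Q : Sylow p L) : Nat.card (Q : Subgroup L) = p := by
  rw [Sylow.card_eq_multiplicity, ← Sylow.card_eq_multiplicity c.P, c.hP]

/-- an element of order `p` generates a Sylow `p`-subgroup. -/
theorem exists_sylow_eq (c : Ctx L p) (u : L) (hu : orderOf u = p) :
    ∃ Q : Sylow p L, (Q : Subgroup L) = Subgroup.zpowers u := by
  have hpg : IsPGroup p (Subgroup.zpowers u) := by
    apply IsPGroup.of_card (n := 1)
    rw [Nat.card_zpowers, hu, pow_one]
  obtain ⟨Q, hQ⟩ := hpg.exists_le_sylow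
  refine ⟨Q, ?_⟩
  symm
  apply Subgroup.eq_of_le_of_card_ge hQ
  rw [Nat.card_zpowers, hu, card_sylow c Q]

/-- a nontrivial element of a Sylow `p`-subgroup has order `p`. -/
theorem orderOf_of_mem (c : Ctx L p) (Q : Sylow p L) (u : L) (hu : u ∈ (Q : Subgroup L))
    (hu1 : u ≠ 1) : orderOf u = p := by
  have hp : p.Prime := Fact.out
  have h1 : orderOf u ∣ p := by
    have h := Subgroup.orderOf_dvd_natCard (Q : Subgroup L) hu
    rw [card_sylow c Q] at h
    exact h
  rcases (Nat.dvd_prime hp).mp h1 with h | h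
  · exact absurd (orderOf_eq_one_iff.mp h) hu1
  · exact h

/-- a Sylow `p`-subgroup containing an element `u` of order `p` is `⟨u⟩`. -/
theorem sylow_eq_zpowers (c : Ctx L p) (Q : Sylow p L) (u : L) (hu : u ∈ (Q : Subgroup L))
    (ho : orderOf u = p) : (Q : Subgroup L) = Subgroup.zpowers u := by
  symm
  apply Subgroup.eq_of_le_of_card_ge
  · rw [Subgroup.zpowers_le]; exact hu
  · rw [Nat.card_zpowers, ho, card_sylow c Q]

/-- every Sylow `p`-subgroup is a conjugate of `P`: its elements are `g x^a g⁻¹`. -/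
theorem exists_conj (c : Ctx L p) (Q : Sylow p L) :
    ∃ g : L, ∀ u : L, u ∈ (Q : Subgroup L) ↔ ∃ a : ℕ, a < p ∧ u = g * c.x ^ a * g⁻¹ := by
  classical
  obtain ⟨g, hg⟩ := MulAction.exists_smul_eq L c.P Q
  refine ⟨g, fun u => ?_⟩
  rw [← hg, Sylow.coe_subgroup_smul, Subgroup.mem_pointwise_smul_iff_inv_smul_mem, P_eq c]
  constructor
  · intro h
    have h3 : (MulAut.conj g)⁻¹ • u = g⁻¹ * u * g := by
      simp [MulAut.smul_def]
    rw [h3] at h
    have h2 : g⁻¹ * u * g ∈ Submonoid.powers c.x := mem_powers_iff_mem_zpowers.mpr h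
    rw [mem_powers_iff_mem_range_orderOf, orderOf_x c] at h2
    rw [Finset.mem_image] at h2
    obtain ⟨a, ha, hau⟩ := h2
    refine ⟨a, Finset.mem_range.mp ha, ?_⟩
    rw [hau]; group
  · rintro ⟨a, -, rfl⟩
    have h3 : ∀ y : L, (MulAut.conj g)⁻¹ • y = g⁻¹ * y * g := by
      intro y
      simp [MulAut.smul_def]
    rw [h3]
    have h4 : g⁻¹ * (g * c.x ^ a * g⁻¹) * g = c.x ^ a := by group
    rw [h4]
    exact Subgroup.npow_mem_zpowers c.x a

theorem main : OrdP.{u} := by
  intro L _ _ p _ c u hu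
  have hp : p.Prime := Fact.out
  obtain ⟨Q, hQ⟩ := exists_sylow_eq c u hu
  obtain ⟨g, hg⟩ := exists_conj c Q
  have huQ : u ∈ (Q : Subgroup L) := by rw [hQ]; exact Subgroup.mem_zpowers u
  obtain ⟨a, -, hau⟩ := (hg u).mp huQ
  refine ⟨g, a, ?_, hau⟩
  intro hpa
  have h1 : c.x ^ a = 1 := by
    rw [← orderOf_x c] at hpa
    exact orderOf_dvd_iff_pow_eq_one.mp hpa
  rw [h1] at hau
  have h2 : u = 1 := by rw [hau]; group
  rw [h2, orderOf_one] at hu
  exact hp.one_lt.ne hu

end Cfsg.Agent.Lib.Helper62.BrCOrdP
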