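import Mathlib
import Cfsg.Agent.Lib.Lead.BrHalfStmt
import Cfsg.Agent.Lib.Helper62.BrCOrdP

set_option autoImplicit false
set_option linter.style.haveILetI false

/-! Piece CountP of S4504 part C: sums of class functions over the elements of order `p`. -/

namespace Cfsg.Agent.Lib.Helper62.BrCCountP

open Cfsg Cfsg.Agent.Lib.Lead.BrHalf Cfsg.Agent.Lib.Helper62.BrCOrdP
open scoped Classical

universe u

theorem main : CountP.{u} := by
  intro L _ _ p _ c F hF
  have hp : p.Prime := Fact.out
  haveI : Fintype (Sylow p L) := Fintype.ofFinite _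
  -- step 1: per-Sylow sum
  have hQ : ∀ Q : Sylow p L, (∑ u : L, if u ∈ (Q : Subgroup L) ∧ u ≠ 1 then F u else 0) =
      ∑ a ∈ Finset.Ico 1 p, F (c.x ^ a) := by
    intro Q
    obtain ⟨g, hg⟩ := exists_conj c Q
    rw [← Finset.sum_filter]
    have himg : Finset.univ.filter (fun u : L => u ∈ (Q : Subgroup L) ∧ u ≠ 1) =
        (Finset.Ico 1 p).image (fun a => g * c.x ^ a * g⁻¹) := by
      ext u
      simp only [Finset.mem_filter, Finset.mem_univ, true_and, Finset.mem_image, Finset.mem_Ico]
      constructor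
      · rintro ⟨hu, hu1⟩
        obtain ⟨a, ha, rfl⟩ := (hg u).mp hu
        refine ⟨a, ⟨?_, ha⟩, rfl⟩
        rcases Nat.eq_zero_or_pos a with h0 | h0
        · exfalso; apply hu1; rw [h0, pow_zero]; group
        · exact h0
      · rintro ⟨a, ⟨ha1, ha⟩, rfl⟩
        refine ⟨(hg _).mpr ⟨a, ha, rfl⟩, ?_⟩
        intro h1
        have h2 : c.x ^ a = 1 := by
          have h3 : c.x ^ a = g⁻¹ * (g * c.x ^ a * g⁻¹) * g := by group
          rw [h3, h1]; group
        have h3 := orderOf_dvd_of_pow_eq_one h2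
        rw [orderOf_x c] at h3
        exact absurd (Nat.le_of_dvd ha1 h3) (not_le.mpr ha)
    rw [himg, Finset.sum_image]
    · apply Finset.sum_congr rfl
      intro a _
      exact hF _ _
    · intro a ha b hb hab
      rw [Finset.mem_coe, Finset.mem_Ico] at ha hb
      have h2 : c.x ^ a = c.x ^ b := by
        have h3 : ∀ n : ℕ, c.x ^ n = g⁻¹ * (g * c.x ^ n * g⁻¹) * g := by intro n; group
        rw [h3 a, h3 b]
        exact congrArg (fun y => g⁻¹ * y * g) hab
      exact pow_injOn_Iio_orderOf (x := c.x) (by rw [orderOf_x c]; exact ha.2)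
        (by rw [orderOf_x c]; exact hb.2) h2
  -- step 2: double count
  have h2 : ∑ Q : Sylow p L, (∑ u : L, if u ∈ (Q : Subgroup L) ∧ u ≠ 1 then F u else 0) =
      ∑ u : L, if orderOf u = p then F u else 0 := by
    rw [Finset.sum_comm]
    apply Finset.sum_congr rfl
    intro u _
    by_cases hu : orderOf u = p
    · rw [if_pos hu]
      obtain ⟨Q₀, hQ₀⟩ := exists_sylow_eq c u hu
      rw [Finset.sum_eq_single Q₀]
      · rw [if_pos]
        refine ⟨by rw [hQ₀]; exact Subgroup.mem_zpowers u, ?_⟩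
        rintro rfl
        rw [orderOf_one] at hu
        exact hp.one_lt.ne hu
      · intro Q _ hQne
        rw [if_neg]
        rintro ⟨huQ, -⟩
        apply hQne
        apply Sylow.ext
        rw [hQ₀, sylow_eq_zpowers c Q u huQ hu]
      · intro h; exact absurd (Finset.mem_univ _) h
    · rw [if_neg hu]
      apply Finset.sum_eq_zero
      intro Q _
      rw [if_neg]
      rintro ⟨huQ, hu1⟩
      exact hu (orderOf_of_mem c Q u huQ hu1)
  rw [← h2, Finset.sum_congr rfl (fun Q _ => hQ Q), Finset.sum_const, Finset.card_univ,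
    nsmul_eq_mul]
  congr 1
  show ((Fintype.card (Sylow p L) : ℕ) : ℂ) = ((Nat.card (Sylow p L) : ℕ) : ℂ)
  rw [Nat.card_eq_fintype_card]

end Cfsg.Agent.Lib.Helper62.BrCCountP
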