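import Mathlib
import Cfsg.Agent.Lib.Lead.BrHalfStmt
import Cfsg.Agent.Lib.Helper62.BrCOrdP

set_option autoImplicit false
set_option linter.style.haveILetI false

/-! Piece CountSing of S4504 part C: sums over the `p`-singular elements of functions invariant
under central translation. -/

namespace Cfsg.Agent.Lib.Helper62.BrCCountSing

open Cfsg Cfsg.Agent.Lib.Lead.BrHalf Cfsg.Agent.Lib.Helper62.BrCOrdP
open scoped Classical

universe u

theorem main (hCentP : CentP.{u}) (hSF : SingForm.{u}) : CountSing.{u} := by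
  intro L _ _ p _ c F hF
  have hp : p.Prime := Fact.out
  have hxo := orderOf_x c
  have hsing : ∀ u z : L, orderOf u = p → z ∈ Subgroup.center L → p ∣ orderOf (u * z) := by
    intro u z hu hz
    have hm : ¬ p ∣ orderOf z := hCentP p c z hz
    have hcomm : Commute u z := Subgroup.mem_center_iff.mp hz u
    have h1 : (u * z) ^ orderOf z = u ^ orderOf z := by
      rw [hcomm.mul_pow, pow_orderOf_eq_one, mul_one]
    have h2 : orderOf (u ^ orderOf z) = p := by
      rw [orderOf_pow' _ (orderOf_pos z).ne', hu, (Nat.Prime.coprime_iff_not_dvd hp).mpr hm,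
        Nat.div_one]
    rw [← h2, ← h1]
    exact orderOf_pow_dvd _
  have hinj : ∀ u z u' z' : L, orderOf u = p → orderOf u' = p → z ∈ Subgroup.center L →
      z' ∈ Subgroup.center L → u * z = u' * z' → u = u' ∧ z = z' := by
    intro u z u' z' hu hu' hz hz' h
    have hm : ¬ p ∣ orderOf z * orderOf z' := by
      intro hd
      rcases (Nat.Prime.dvd_mul hp).mp hd with h1 | h1
      · exact hCentP p c z hz h1
      · exact hCentP p c z' hz' h1
    obtain ⟨b, -, hb⟩ := Nat.exists_mul_mod_eq_one_of_coprime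
      ((Nat.Prime.coprime_iff_not_dvd hp).mpr hm).symm hp.one_lt
    have hc1 : Commute u z := Subgroup.mem_center_iff.mp hz u
    have hc2 : Commute u' z' := Subgroup.mem_center_iff.mp hz' u'
    have h1 : (u * z) ^ (orderOf z * orderOf z') = u ^ (orderOf z * orderOf z') := by
      rw [hc1.mul_pow, pow_mul z, pow_orderOf_eq_one, one_pow, mul_one]
    have h2 : (u' * z') ^ (orderOf z * orderOf z') = u' ^ (orderOf z * orderOf z') := by
      rw [hc2.mul_pow, pow_mul' z', pow_orderOf_eq_one, one_pow, mul_one]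
    have h3 : u ^ (orderOf z * orderOf z') = u' ^ (orderOf z * orderOf z') := by
      rw [← h1, ← h2, h]
    have hu_eq : ∀ y : L, orderOf y = p → (y ^ (orderOf z * orderOf z')) ^ b = y := by
      intro y hy
      rw [← pow_mul, ← pow_mod_orderOf, hy, hb, pow_one]
    have huu : u = u' := by rw [← hu_eq u hu, ← hu_eq u' hu', h3]
    refine ⟨huu, ?_⟩
    rw [huu] at h
    exact mul_left_cancel h
  rw [← Finset.sum_filter, ← Finset.sum_filter]
  have himg : Finset.univ.filter (fun g : L => p ∣ orderOf g) =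
      ((Finset.univ.filter (fun u : L => orderOf u = p)) ×ˢ
        (Finset.univ.filter (fun z : L => z ∈ Subgroup.center L))).image
          (fun q : L × L => q.1 * q.2) := by
    ext g
    simp only [Finset.mem_filter, Finset.mem_univ, true_and, Finset.mem_image,
      Finset.mem_product, Prod.exists]
    constructor
    · intro hg
      obtain ⟨h, a, hpa, z, hz, hgz⟩ := hSF p c g hg
      refine ⟨h * c.x ^ a * h⁻¹, z, ⟨?_, hz⟩, hgz.symm⟩
      have h1 : h * c.x ^ a * h⁻¹ = MulAut.conj h (c.x ^ a) := by simp [MulAut.conj_apply]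
      have ha0 : a ≠ 0 := by
        rintro rfl
        exact hpa (dvd_zero p)
      rw [h1, MulEquiv.orderOf_eq, orderOf_pow' _ ha0, hxo,
        (Nat.Prime.coprime_iff_not_dvd hp).mpr hpa, Nat.div_one]
    · rintro ⟨u, z, ⟨hu, hz⟩, rfl⟩
      exact hsing u z hu hz
  rw [himg, Finset.sum_image]
  · rw [Finset.sum_product, Finset.mul_sum]
    apply Finset.sum_congr rfl
    intro u _
    rw [Finset.sum_congr rfl (fun z hz => hF u z (Finset.mem_filter.mp hz).2), Finset.sum_const,
      nsmul_eq_mul]
    congr 1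
    show ((Finset.card _ : ℕ) : ℂ) = ((Nat.card (Subgroup.center L) : ℕ) : ℂ)
    congr 1
    symm
    apply Nat.subtype_card
    intro z
    simp
  · rintro ⟨u, z⟩ hq ⟨u', z'⟩ hq' h
    rw [Finset.mem_coe, Finset.mem_product, Finset.mem_filter, Finset.mem_filter] at hq hq'
    obtain ⟨h1, h2⟩ := hinj u z u' z' hq.1.2 hq'.1.2 hq.2.2 hq'.2.2 h
    rw [h1, h2]

end Cfsg.Agent.Lib.Helper62.BrCCountSing
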