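import Mathlib
import Cfsg.Agent.Lib.Lead.BrHalfStmt
import Cfsg.Agent.Lib.Helper62.BrCOrdP

set_option autoImplicit false
set_option linter.style.haveILetI false

/-! Piece SingForm of S4504 part C: `p`-singular elements are `h x^a h⁻¹ z`, `z` central. -/

namespace Cfsg.Agent.Lib.Helper62.BrCSingForm

open Cfsg Cfsg.Agent.Lib.Lead.BrHalf Cfsg.Agent.Lib.Helper62.BrCOrdP

universe u

/-- a power of an element of order `p` by an exponent prime to `p` generates it back. -/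
theorem exists_pow_pow {L : Type u} [Group L] {p : ℕ} (hp : p.Prime) (y : L) (hy : orderOf y = p)
    (a : ℕ) (hpa : ¬ p ∣ a) : ∃ b : ℕ, (y ^ a) ^ b = y := by
  have hcop : Nat.Coprime a p := ((Nat.Prime.coprime_iff_not_dvd hp).mpr hpa).symm
  rw [← hy] at hcop
  exact exists_pow_eq_self_of_coprime hcop

theorem main (hCentP : CentP.{u}) (hOrdP : OrdP.{u}) : SingForm.{u} := by
  intro L _ _ p _ c g hg
  have hp : p.Prime := Fact.out
  obtain ⟨d, hd⟩ := hg
  have hd0 : d ≠ 0 := by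
    rintro rfl
    rw [mul_zero] at hd
    exact (orderOf_pos g).ne' hd
  have hu : orderOf (g ^ d) = p := by
    rw [orderOf_pow_of_dvd hd0 (Dvd.intro_left p hd.symm), hd]
    exact Nat.mul_div_cancel p (Nat.pos_of_ne_zero hd0)
  obtain ⟨h, a, hpa, hau⟩ := hOrdP p c (g ^ d) hu
  have hcomm : g * (h * c.x ^ a * h⁻¹) = (h * c.x ^ a * h⁻¹) * g := by
    rw [← hau]
    exact (pow_mul_comm' g d).symm
  have hxo := orderOf_x c
  obtain ⟨b, hb⟩ := exists_pow_pow hp c.x hxo a hpa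
  have hc2 : (h⁻¹ * g * h) * c.x ^ a = c.x ^ a * (h⁻¹ * g * h) := by
    have h1 : h⁻¹ * g * h * c.x ^ a = h⁻¹ * (g * (h * c.x ^ a * h⁻¹)) * h := by group
    rw [h1, hcomm]; group
  have hc3 : (h⁻¹ * g * h) * c.x = c.x * (h⁻¹ * g * h) := by
    have h1 : Commute (h⁻¹ * g * h) ((c.x ^ a) ^ b) :=
      Commute.pow_right (show Commute (h⁻¹ * g * h) (c.x ^ a) from hc2) b
    rw [hb] at h1
    exact h1.eq
  obtain ⟨b', z, hz, hgz⟩ := c.hC (h⁻¹ * g * h) hc3
  have hgg : g = h * (h⁻¹ * g * h) * h⁻¹ := by group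
  have hzc := Subgroup.mem_center_iff.mp hz h⁻¹
  have hgf : g = h * c.x ^ b' * h⁻¹ * z := by
    rw [hgg, hgz]
    calc h * (c.x ^ b' * z) * h⁻¹ = h * c.x ^ b' * (z * h⁻¹) := by group
      _ = h * c.x ^ b' * (h⁻¹ * z) := by rw [hzc]
      _ = h * c.x ^ b' * h⁻¹ * z := by group
  refine ⟨h, b', ?_, z, hz, hgf⟩
  intro hpb
  have h1 : c.x ^ b' = 1 := by
    rw [← hxo] at hpb
    exact orderOf_dvd_iff_pow_eq_one.mp hpb
  have hgz' : g = z := by
    rw [hgf, h1]; group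
  apply hCentP p c z hz
  rw [← hgz', hd]
  exact Dvd.intro d rfl

end Cfsg.Agent.Lib.Helper62.BrCSingForm
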