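import Mathlib
import Cfsg.Agent.Lib.Helper44.OFldStmt

set_option autoImplicit false

/-! Piece Mc1 of S2736: the parity of a maximal totally singular subspace against its
`σ`-twist when the descended form is hyperbolic. -/

namespace Cfsg.Agent.Lib.Helper62.OFldMc1

open Matrix Module QuadraticMap
open Cfsg.Agent.Lib.Helper43.H90Fin
open Cfsg.Agent.Lib.Helper44.OFld0 Cfsg.Agent.Lib.Helper44.MaxTS
  Cfsg.Agent.Lib.Helper44.QSpace Cfsg.Agent.Lib.Helper44.QClass

universe u

variable {F : Type u} [Field F] {ι : Type}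

/-- the coordinatewise inclusion of the fixed field -/
def up (σ : RingAut F) (v : ι → ↥(fixF σ)) : ι → F := fun i => ((v i : ↥(fixF σ)) : F)

theorem up_add (σ : RingAut F) (v w : ι → ↥(fixF σ)) : up σ (v + w) = up σ v + up σ w := by
  funext i
  simp [up]

theorem polar_up (σ : RingAut F) (P : QuadraticForm F (ι → F))
    (P₀ : QuadraticForm ↥(fixF σ) (ι → ↥(fixF σ)))
    (hP₀ : ∀ v : ι → ↥(fixF σ), ((P₀ v : ↥(fixF σ)) : F) = P (up σ v))
    (x y : ι → ↥(fixF σ)) :
    polar P (up σ x) (up σ y) = ((polar P₀ x y : ↥(fixF σ)) : F) := by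
  unfold polar
  rw [← up_add, ← hP₀, ← hP₀, ← hP₀]
  push_cast
  rfl

theorem sigma_symm_up (σ : RingAut F) (v : ι → ↥(fixF σ)) :
    (fun i => σ.symm (up σ v i)) = up σ v := by
  funext i
  have h : σ (up σ v i) = up σ v i := (mem_fixF σ _).1 (v i).2
  have h2 : σ.symm (σ (up σ v i)) = up σ v i := by simp
  rw [h] at h2
  exact h2

theorem ts_span (P : QuadraticForm F (ι → F)) {m : ℕ} (E : Fin m → (ι → F))
    (h1 : ∀ i, P (E i) = 0) (h2 : ∀ i j, polar P (E i) (E j) = 0) :
    ∀ v ∈ Submodule.span F (Set.range E), P v = 0 := by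
  have hp : ∀ v ∈ Submodule.span F (Set.range E), ∀ w ∈ Submodule.span F (Set.range E),
      polar P v w = 0 := by
    intro v hv
    induction hv using Submodule.span_induction with
    | mem x hx =>
      obtain ⟨i, rfl⟩ := hx
      intro w hw
      induction hw using Submodule.span_induction with
      | mem y hy =>
        obtain ⟨j, rfl⟩ := hy
        exact h2 i j
      | zero => simp
      | add a b _ _ ha hb => rw [polar_add_right, ha, hb, add_zero]
      | smul c a _ ha => rw [polar_smul_right, ha, smul_zero]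
    | zero => intro w _; simp
    | add a b _ _ ha hb =>
      intro w hw
      rw [polar_add_left, ha w hw, hb w hw, add_zero]
    | smul c a _ ha =>
      intro w hw
      rw [polar_smul_left, ha w hw, smul_zero]
  intro v hv
  induction hv using Submodule.span_induction with
  | mem x hx =>
    obtain ⟨i, rfl⟩ := hx
    exact h1 i
  | zero => simp
  | add a b ha hb iha ihb =>
    have h := hp a ha b hb
    unfold polar at h
    rw [iha, ihb] at h
    simpa using h
  | smul c a _ ha =>
    rw [QuadraticMap.map_smul, ha, smul_zero]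

theorem main : Cfsg.Agent.Lib.Helper44.OFldStmt.HypParity.{u} := by
  intro F _ _ ι _ _ m hι σ P hS hP P₀ hP₀ U hU hex
  obtain ⟨e, f, hH⟩ := hex
  obtain ⟨g1, g2, g3, g4, g5⟩ := hH
  have hP₀' : ∀ v : ι → ↥(fixF σ), ((P₀ v : ↥(fixF σ)) : F) = P (up σ v) := hP₀
  set E : Fin m → (ι → F) := fun i => up σ (e i) with hE
  set Fv : Fin m → (ι → F) := fun i => up σ (f i) with hFv
  have hE1 : ∀ i, P (E i) = 0 := by
    intro i
    rw [hE, ← hP₀', g1 i]
    rfl
  have hE2 : ∀ i j, polar P (E i) (E j) = 0 := by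
    intro i j
    rw [hE, polar_up σ P P₀ hP₀', g4 i j]
    rfl
  have hE3 : ∀ i j, polar P (E i) (Fv j) = if i = j then 1 else 0 := by
    intro i j
    rw [hE, hFv, polar_up σ P P₀ hP₀', g3 i j]
    split_ifs <;> simp
  have hli : LinearIndependent F E := by
    rw [Fintype.linearIndependent_iff]
    intro c hc j
    have h := congrArg (fun z => polar P z (Fv j)) hc
    simp only [Cfsg.Agent.Lib.Helper44.QBasis.flip_sum_smul, polar_zero_left, hE3] at h
    simpa using h
  set W : Submodule F (ι → F) := Submodule.span F (Set.range E) with hW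
  have hWrank : finrank F ↥W = m := by
    rw [hW, finrank_span_eq_card hli, Fintype.card_fin]
  have hWts : TS P m W := ⟨hWrank, ts_span P E hE1 hE2⟩
  have hWle : W ≤ sigU σ W := by
    rw [hW, Submodule.span_le]
    rintro x ⟨i, rfl⟩
    show E i ∈ sigU σ (Submodule.span F (Set.range E))
    rw [mem_sigU]
    have h : (fun k => σ.symm (E i k)) = E i := sigma_symm_up σ (e i)
    rw [h]
    exact Submodule.subset_span ⟨i, rfl⟩
  have hWσ : sigU σ W = W := by
    symm
    apply Submodule.eq_of_le_of_finrank_le hWle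
    rw [finrank_sigU]
  have hσU : TS P m (sigU σ U) := by
    refine ⟨by rw [finrank_sigU]; exact hU.1, ?_⟩
    intro v hv
    have h1 : P (fun k => σ.symm (v k)) = 0 := hU.2 _ hv
    have hv' : v = fun k => σ (σ.symm (v k)) := by
      funext k
      simp
    rw [hv', hP, h1, map_zero]
  have hV : finrank F (ι → F) = 2 * m := by
    rw [Module.finrank_fintype_fun_eq_card, hι]
  have h1 := ts_parity hS hV _ hU hσU hWts rfl
  have h2 : finrank F ↥(W ⊓ sigU σ U) = finrank F ↥(W ⊓ U) := by
    have e : W ⊓ sigU σ U = sigU σ (W ⊓ U) := by rw [sigU_inf, hWσ]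
    rw [e, finrank_sigU]
  rw [h2] at h1
  rw [Nat.even_iff]
  omega

end Cfsg.Agent.Lib.Helper62.OFldMc1
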