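import Mathlib
import Cfsg.Agent.Lib.Helper44.OFldStmt
import Cfsg.Agent.Lib.Helper44.OTyp1
import Cfsg.Agent.Lib.Helper62.OFldMc1

set_option autoImplicit false

/-! Piece Mc2 of S2736: the parity of a maximal totally singular subspace against its
`σ`-twist when the descended form is of minus type. -/

namespace Cfsg.Agent.Lib.Helper62.OFldMc2

open Matrix Module QuadraticMap
open Cfsg.Agent.Lib.Helper43.H90Fin
open Cfsg.Agent.Lib.Helper44.OFld0 Cfsg.Agent.Lib.Helper44.MaxTS
  Cfsg.Agent.Lib.Helper44.QSpace Cfsg.Agent.Lib.Helper44.QClass Cfsg.Agent.Lib.Helper44.NegPairs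
open Cfsg.Agent.Lib.Helper62.OFldMc1

universe u

set_option maxHeartbeats 800000 in
theorem main : Cfsg.Agent.Lib.Helper44.OFldStmt.EllParity.{u} := by
  intro F _ _ ι _ _ k hι σ P hS hP P₀ hP₀ U hU e f x y ζ hH hEl horth
  obtain ⟨g1, g2, g3, g4, g5⟩ := hH
  obtain ⟨l1, l2, l3, l4⟩ := hEl
  have hP₀' : ∀ v : ι → ↥(fixF σ), ((P₀ v : ↥(fixF σ)) : F) = P (up σ v) := hP₀
  set E : Fin k → (ι → F) := fun i => up σ (e i) with hE
  set Fv : Fin k → (ι → F) := fun i => up σ (f i) with hFv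
  set X : ι → F := up σ x with hX
  set Y : ι → F := up σ y with hY
  set Z : F := ((ζ : ↥(fixF σ)) : F) with hZ
  have hE1 : ∀ i, P (E i) = 0 := by
    intro i
    rw [hE, ← hP₀', g1 i]
    rfl
  have hF1 : ∀ i, P (Fv i) = 0 := by
    intro i
    rw [hFv, ← hP₀', g2 i]
    rfl
  have hE2 : ∀ i j, polar P (E i) (E j) = 0 := by
    intro i j
    rw [hE, polar_up σ P P₀ hP₀', g4 i j]
    rfl
  have hF2 : ∀ i j, polar P (Fv i) (Fv j) = 0 := by
    intro i j
    rw [hFv, polar_up σ P P₀ hP₀', g5 i j]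
    rfl
  have hE3 : ∀ i j, polar P (E i) (Fv j) = if i = j then 1 else 0 := by
    intro i j
    rw [hE, hFv, polar_up σ P P₀ hP₀', g3 i j]
    split_ifs <;> simp
  have hX1 : P X = 1 := by
    rw [hX, ← hP₀', l1]
    rfl
  have hXY : polar P X Y = 1 := by
    rw [hX, hY, polar_up σ P P₀ hP₀', l2]
    rfl
  have hY1 : P Y = Z := by
    rw [hY, ← hP₀', l3]
  have hEX : ∀ i, polar P (E i) X = 0 := by
    intro i
    rw [hE, hX, polar_up σ P P₀ hP₀', (horth i).1]
    rfl
  have hEY : ∀ i, polar P (E i) Y = 0 := by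
    intro i
    rw [hE, hY, polar_up σ P P₀ hP₀', (horth i).2.1]
    rfl
  have hFX : ∀ i, polar P (Fv i) X = 0 := by
    intro i
    rw [hFv, hX, polar_up σ P P₀ hP₀', (horth i).2.2.1]
    rfl
  have hFY : ∀ i, polar P (Fv i) Y = 0 := by
    intro i
    rw [hFv, hY, polar_up σ P P₀ hP₀', (horth i).2.2.2]
    rfl
  have hV : finrank F (ι → F) = 2 * (k + 1) := by
    rw [Module.finrank_fintype_fun_eq_card, hι]
  -- Step 1: the elliptic parameter splits over `F`
  have hθ : ∃ θ : F, θ ^ 2 + θ + Z = 0 := by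
    by_contra hne
    push Not at hne
    have hHF : IsHyp P E Fv := ⟨hE1, hF1, hE3, hE2, hF2⟩
    have hEF : IsEll P X Y Z := ⟨hX1, hXY, hY1, hne⟩
    have hab := Cfsg.Agent.Lib.Helper44.OTyp1.hab_of_ell' hne
    obtain ⟨Ψ, hΨ⟩ := Cfsg.Agent.Lib.Helper44.OTyp1.coordM P hHF hEF
      (fun i => ⟨hEX i, hEY i, hFX i, hFY i⟩) hV
    have hΨ' : ∀ v, minusQ k F 1 Z (Ψ v) = P v := by
      intro v
      rw [hΨ v]
      show Cfsg.quadFormMinus k F 1 Z (Ψ v) = _
      unfold Cfsg.quadFormMinus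
      ring
    have hS' : Sep (minusQ k F 1 Z) := Cfsg.Agent.Lib.Helper44.OTyp1.sep_of_iso hS _ Ψ hΨ'
    have hW : ∀ w ∈ U.map Ψ.toLinearMap, minusQ k F 1 Z w = 0 := by
      rintro w ⟨u, hu, rfl⟩
      show minusQ k F 1 Z (Ψ u) = 0
      rw [hΨ']
      exact hU.2 u hu
    have h1 := Cfsg.Agent.Lib.Helper44.Inv8.minus_ts_le hS' hab hW
    have h2 : finrank F (U.map Ψ.toLinearMap) = finrank F U := LinearEquiv.finrank_map_eq Ψ U
    have h3 := hU.1
    omega
  obtain ⟨θ, hθ⟩ := hθ
  -- Step 2: the root is moved by `σ`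
  have hσZ : σ Z = Z := (mem_fixF σ _).1 ζ.2
  have hσθ : σ θ ≠ θ := by
    intro h
    have hm : θ ∈ fixF σ := (mem_fixF σ θ).2 h
    apply l4 ⟨θ, hm⟩
    apply Subtype.ext
    push_cast
    exact hθ
  have hθ' : (σ θ) ^ 2 + σ θ + Z = 0 := by
    have h := congrArg σ hθ
    rw [map_add, map_add, map_pow, hσZ, map_zero] at h
    exact h
  have h2θ : 2 * θ + 1 ≠ 0 := by
    intro h
    have h' := congrArg σ h
    rw [map_add, map_mul, map_ofNat, map_one, map_zero] at h'
    have h3 : (2 : F) * (σ θ - θ) = 0 := by linear_combination h' - h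
    rcases mul_eq_zero.1 h3 with h4 | h4
    · rw [h4] at h
      simp at h
    · exact hσθ (sub_eq_zero.1 h4)
  -- Step 3: an explicit maximal totally singular subspace
  set v₁ : ι → F := θ • X + Y with hv₁
  set v₂ : ι → F := σ θ • X + Y with hv₂
  have hPv₁ : P v₁ = 0 := by
    rw [hv₁, QuadraticMap.map_add P, QuadraticMap.map_smul, polar_smul_left, hX1, hXY, hY1]
    simp only [smul_eq_mul]
    linear_combination hθ
  have hEv₁ : ∀ i, polar P (E i) v₁ = 0 := by
    intro i
    rw [hv₁, polar_add_right, polar_smul_right, hEX, hEY]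
    simp
  have hFv₁ : ∀ i, polar P v₁ (Fv i) = 0 := by
    intro i
    rw [hv₁, polar_add_left, polar_smul_left, polar_comm P X, polar_comm P Y, hFX, hFY]
    simp
  have hXv₁ : polar P v₁ X = 2 * θ + 1 := by
    rw [hv₁, polar_add_left, polar_smul_left, polar_self, hX1, polar_comm P Y, hXY]
    simp only [smul_eq_mul, nsmul_eq_mul]
    push_cast
    ring
  set G : Fin (k + 1) → (ι → F) := Fin.cons v₁ E with hG
  have hG1 : ∀ i, P (G i) = 0 := by
    intro i
    refine Fin.cases ?_ (fun j => ?_) i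
    · simpa [hG] using hPv₁
    · simpa [hG] using hE1 j
  have hG2 : ∀ i j, polar P (G i) (G j) = 0 := by
    intro i j
    refine Fin.cases ?_ (fun a => ?_) i
    · refine Fin.cases ?_ (fun b => ?_) j
      · simp only [hG, Fin.cons_zero]
        rw [polar_self, hPv₁, smul_zero]
      · simp only [hG, Fin.cons_zero, Fin.cons_succ]
        rw [polar_comm]
        exact hEv₁ b
    · refine Fin.cases ?_ (fun b => ?_) j
      · simp only [hG, Fin.cons_zero, Fin.cons_succ]
        exact hEv₁ a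
      · simp only [hG, Fin.cons_succ]
        exact hE2 a b
  have hGli : LinearIndependent F G := by
    rw [Fintype.linearIndependent_iff]
    intro c hc
    rw [Fin.sum_univ_succ] at hc
    simp only [hG, Fin.cons_zero, Fin.cons_succ] at hc
    have hsucc : ∀ j, c (Fin.succ j) = 0 := by
      intro j
      have h := congrArg (fun z => polar P z (Fv j)) hc
      simp only [polar_add_left, polar_smul_left,
        Cfsg.Agent.Lib.Helper44.QBasis.flip_sum_smul, polar_zero_left, hFv₁, hE3,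
        smul_eq_mul, mul_zero, zero_add, mul_ite, mul_one, Finset.sum_ite_eq',
        Finset.mem_univ, if_true] at h
      exact h
    have h0 : c 0 = 0 := by
      have h := congrArg (fun z => polar P z X) hc
      simp only [polar_add_left, polar_smul_left,
        Cfsg.Agent.Lib.Helper44.QBasis.flip_sum_smul, polar_zero_left, hXv₁, hEX,
        smul_eq_mul, mul_zero, Finset.sum_const_zero, add_zero] at h
      rcases mul_eq_zero.1 h with h | h
      · exact h
      · exact absurd h h2θ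
    intro i
    refine Fin.cases h0 hsucc i
  set U₁ : Submodule F (ι → F) := Submodule.span F (Set.range G) with hU₁
  have hU₁rank : finrank F ↥U₁ = k + 1 := by
    rw [hU₁, finrank_span_eq_card hGli, Fintype.card_fin]
  have hU₁ts : TS P (k + 1) U₁ := ⟨hU₁rank, ts_span P G hG1 hG2⟩
  have hv₁mem : v₁ ∈ U₁ := Submodule.subset_span ⟨0, by simp [hG]⟩
  have hEmem : ∀ i, E i ∈ U₁ := fun i => Submodule.subset_span ⟨Fin.succ i, by simp [hG]⟩
  set W : Submodule F (ι → F) := Submodule.span F (Set.range E) with hW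
  have hEli : LinearIndependent F E := by
    have h := hGli.comp Fin.succ (Fin.succ_injective k)
    have e : G ∘ Fin.succ = E := by
      funext i
      simp [hG]
    rw [e] at h
    exact h
  have hWrank : finrank F ↥W = k := by
    rw [hW, finrank_span_eq_card hEli, Fintype.card_fin]
  have hWU₁ : W ≤ U₁ := by
    rw [hW, Submodule.span_le]
    rintro _ ⟨i, rfl⟩
    exact hEmem i
  -- Step 4: the twist of `U₁`
  have hσv₂ : (fun j => σ.symm (v₂ j)) = v₁ := by
    have hXs : ∀ j, σ.symm (X j) = X j := fun j => congrFun (sigma_symm_up σ x) j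
    have hYs : ∀ j, σ.symm (Y j) = Y j := fun j => congrFun (sigma_symm_up σ y) j
    funext j
    simp only [hv₂, hv₁, Pi.add_apply, Pi.smul_apply, smul_eq_mul, map_add, map_mul, hXs, hYs]
    simp
  have hv₂mem : v₂ ∈ sigU σ U₁ := by
    rw [mem_sigU, hσv₂]
    exact hv₁mem
  have hWσ : W ≤ sigU σ U₁ := by
    rw [hW, Submodule.span_le]
    rintro _ ⟨i, rfl⟩
    show E i ∈ sigU σ U₁
    rw [mem_sigU]
    have h : (fun j => σ.symm (E i j)) = E i := sigma_symm_up σ (e i)
    rw [h]
    exact hEmem i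
  have hσU₁rank : finrank F ↥(sigU σ U₁) = k + 1 := by rw [finrank_sigU, hU₁rank]
  have hinf : finrank F ↥(U₁ ⊓ sigU σ U₁) = k := by
    have hge : k ≤ finrank F ↥(U₁ ⊓ sigU σ U₁) := by
      rw [← hWrank]
      exact Submodule.finrank_mono (le_inf hWU₁ hWσ)
    have hle : finrank F ↥(U₁ ⊓ sigU σ U₁) ≤ k + 1 := by
      rw [← hU₁rank]
      exact Submodule.finrank_mono inf_le_left
    by_contra hne
    have heq : finrank F ↥(U₁ ⊓ sigU σ U₁) = k + 1 := by omega
    have e1 : U₁ ⊓ sigU σ U₁ = sigU σ U₁ := by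
      apply Submodule.eq_of_le_of_finrank_le inf_le_right
      rw [heq, hσU₁rank]
    have hv₂U : v₂ ∈ U₁ := by
      have : v₂ ∈ U₁ ⊓ sigU σ U₁ := by
        rw [e1]
        exact hv₂mem
      exact this.1
    have hd : (σ θ - θ) • X ∈ U₁ := by
      have e : (σ θ - θ) • X = v₂ - v₁ := by
        rw [hv₂, hv₁, sub_smul]
        abel
      rw [e]
      exact U₁.sub_mem hv₂U hv₁mem
    have hXU : X ∈ U₁ := by
      have hne' : σ θ - θ ≠ 0 := sub_ne_zero.2 hσθ
      have := U₁.smul_mem (σ θ - θ)⁻¹ hd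
      rwa [smul_smul, inv_mul_cancel₀ hne', one_smul] at this
    have := hU₁ts.2 X hXU
    rw [hX1] at this
    exact one_ne_zero this
  -- Step 5: transfer of the parity
  have hσts : ∀ A : Submodule F (ι → F), TS P (k + 1) A → TS P (k + 1) (sigU σ A) := by
    intro A hA
    refine ⟨by rw [finrank_sigU]; exact hA.1, ?_⟩
    intro v hv
    have h1 : P (fun j => σ.symm (v j)) = 0 := hA.2 _ hv
    have hv' : v = fun j => σ (σ.symm (v j)) := by
      funext j
      simp
    rw [hv', hP, h1, map_zero]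
  have hσU := hσts U hU
  have hσU₁ := hσts U₁ hU₁ts
  have h1 := ts_parity hS hV _ hU hσU hU₁ts rfl
  have h2 := ts_parity hS hV _ hU₁ts hσU hσU₁ rfl
  have h3 : finrank F ↥(sigU σ U₁ ⊓ sigU σ U) = finrank F ↥(U₁ ⊓ U) := by
    rw [← sigU_inf, finrank_sigU]
  have h4 : finrank F ↥(sigU σ U₁ ⊓ U₁) = k := by
    rw [inf_comm]
    exact hinf
  rw [h3, h4] at h2
  rw [Nat.even_iff]
  have h5 : finrank F ↥(U₁ ⊓ U) ≤ k + 1 := by
    rw [← hU₁rank]
    exact Submodule.finrank_mono inf_le_left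
  have h6 : finrank F ↥(U₁ ⊓ sigU σ U) ≤ k + 1 := by
    rw [← hU₁rank]
    exact Submodule.finrank_mono inf_le_left
  have h7 : finrank F ↥(U ⊓ sigU σ U) ≤ k + 1 := by
    rw [← hU.1]
    exact Submodule.finrank_mono inf_le_left
  omega

end Cfsg.Agent.Lib.Helper62.OFldMc2
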