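import Mathlib
import Cfsg.Agent.Lib.Helper62.S57Stmt
import Cfsg.Agent.Lib.Helper62.S55Stmt
import Cfsg.Agent.Lib.Helper76.PSolv

/-!
# S1357 / KPRIMEABS (helper62): `|R|` is prime in the setting `SetA`/`SetB` when `H` is not
nilpotent (assembly of the pure pieces)
-/

set_option autoImplicit false

namespace Cfsg.Agent.Lib.Helper62.S57KPRIMEABS

universe u

open Cfsg Cfsg.Agent.Lib.Helper93.S64Stmt Cfsg.Agent.Lib.Helper22.S56Stmt
  Cfsg.Agent.Lib.Helper62.S57Stmt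

theorem main (hSN : SylNormal.{u}) (hSP : Cfsg.Agent.Lib.Helper62.S55Stmt.SylNilp.{u})
    (hHD : HallD.{u}) (hFr : Frat.{u}) (hLift : Lift.{u}) (hQP : QuotP.{u})
    (hNP2 : NilProd2.{u}) : KPrimeAbs.{u} := by
  intro X _ _ H R _ q hA hB hnil
  have hS := hSN H R q hA hB
  have hN := hSP H R q hA hB
  obtain ⟨D, hDH, hDO, hHle, hRD, hDq⟩ := hHD H R q hA hB hS.1
  haveI : Fact q.Prime := ⟨hB.qprime⟩
  have hle : Oq X H q ≤ Cfsg.pCore q X := inf_le_left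
  have hOp : IsPGroup q ↥(Oq X H q) :=
    (Cfsg.Agent.Lib.Helper76.PSolv.pCore_isPGroup q).to_le hle
  obtain ⟨N, hNn, hNO, hpow, hcomm, hgen⟩ := hFr (Oq X H q) q hOp
  haveI := hNn
  by_cases hc : ∃ d ∈ D, ∃ o ∈ Oq X H q, d * o * d⁻¹ * o⁻¹ ∉ N
  · exact hQP H R D N q hA hB hS.1 hS.2 hDH hDO hRD hNO hpow hcomm hc
  · exfalso
    apply hnil
    have hc' : ∀ a ∈ D, ∀ o ∈ Oq X H q, a * o * a⁻¹ * o⁻¹ ∈ N := by
      intro a ha o ho
      by_contra h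
      exact hc ⟨a, ha, o, ho, h⟩
    have hDc : D ≤ Subgroup.centralizer (Oq X H q : Set X) :=
      hLift (Oq X H q) N D q hOp hNO hgen hDq hc'
    exact hNP2 H (Oq X H q) D q hOp (Oq_le X H q) hDH hDO hHle hN hDc

end Cfsg.Agent.Lib.Helper62.S57KPRIMEABS
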